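import Mathlib
import Cfsg.Agent.Lib.Steiner.Basic

/-! The strongly regular graphs attached to S(3, 6, 22). -/

set_option autoImplicit false
set_option linter.unusedSectionVars false

namespace Cfsg.Lib.Steiner

open Finset

variable {α : Type*} [Fintype α] [DecidableEq α] {B : Set (Finset α)}

theorem ncard_subtype_eq (B : Set (Finset α)) (P : Finset α → Prop) [DecidablePred P] :
    {c : B | P c}.ncard = ((thru B ∅).filter P).card := by
  rw [← Set.ncard_image_of_injective _ Subtype.val_injective, ← Set.ncard_coe_finset]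
  congr 1
  ext c
  simp [mem_thru, and_comm]

theorem ncard_eq_sum {β : Type*} [Fintype β] (S : Set β) [DecidablePred (· ∈ S)] :
    S.ncard = ∑ b, if b ∈ S then 1 else 0 := by
  rw [← card_filter, ← Set.ncard_coe_finset]
  congr 1
  ext b; simp

theorem ncard_option_sum {β γ : Type*} [Fintype β] [Fintype γ] (S : Set (Option (β ⊕ γ)))
    [Decidable (none ∈ S)] :
    S.ncard = (if none ∈ S then 1 else 0) + {a | some (Sum.inl a) ∈ S}.ncard
      + {b | some (Sum.inr b) ∈ S}.ncard := by
  classical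
  rw [ncard_eq_sum, ncard_eq_sum, ncard_eq_sum, Fintype.sum_option, Fintype.sum_sum_type, add_assoc]
  congr

theorem sum_card_inter_eq (F : Finset (Finset α)) (X : Finset α) :
    ∑ d ∈ F, (d ∩ X).card = ∑ p ∈ X, (F.filter fun d => p ∈ d).card := by
  simp only [card_filter]
  rw [sum_comm]
  refine sum_congr rfl fun d _ => ?_
  rw [← card_filter, filter_mem_eq_inter, inter_comm]

theorem not_disjoint_self22 (hB : IsSteinerSystem 3 6 B) {b : Finset α} (hb : b ∈ B) :
    ¬ Disjoint b b := by
  rw [disjoint_self_iff_empty]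
  rintro rfl
  simpa using hB.1 _ hb

theorem card_disj22 (hα : Fintype.card α = 22) (hB : IsSteinerSystem 3 6 B) {b : Finset α}
    (hb : b ∈ B) : ((thru B ∅).filter fun c => Disjoint c b).card = 16 := by
  rw [← (nInter22 hα hB hb).1, nInter]
  congr 1
  ext c
  simp only [mem_filter, mem_erase, card_eq_zero, ← disjoint_iff_inter_eq_empty]
  refine ⟨fun h => ⟨⟨?_, h.1⟩, h.2⟩, fun h => ⟨h.1.2, h.2⟩⟩
  rintro rfl
  exact not_disjoint_self22 hB hb h.2

theorem card_disj_mem22 (hα : Fintype.card α = 22) (hB : IsSteinerSystem 3 6 B) {b : Finset α}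
    (hb : b ∈ B) {p : α} (hp : p ∉ b) :
    ((thru B ∅).filter fun c => Disjoint c b ∧ p ∈ c).card = 6 := by
  have h1 := sum_choose_inter_eq (B := B) (s := {p}) (X := b) (i := 2) (l := 1) (by simpa using hp)
    (fun u hu => card_thru_of_card_eq hB (by simpa using hu))
  have h0 := (lam22 hα hB).2.1 {p} (by simp)
  have hlt : ∀ c ∈ thru B {p}, (c ∩ b).card < 3 := by
    intro c hc
    rw [mem_thru, singleton_subset_iff] at hc
    exact inter_card_lt hB hc.1 hb (by rintro rfl; exact hp hc.2)
  rw [sum_eq_sum_nInter _ _ 3 hlt (fun j => j.choose 2), hB.1 b hb] at h1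
  have h2 := sum_eq_sum_nInter _ _ 3 hlt (fun _ => 1)
  rw [← card_eq_sum_ones, h0] at h2
  have h3 : nInter (thru B {p}) b 1 = 0 := by
    rw [nInter, card_eq_zero, filter_eq_empty_iff]
    intro c hc
    rw [mem_thru, singleton_subset_iff] at hc
    have := inter22 hα hB hc.1 hb (by rintro rfl; exact hp hc.2)
    omega
  simp only [sum_range_succ, range_zero, sum_empty, Nat.choose] at h1 h2
  have h4 : nInter (thru B {p}) b 0 = 6 := by omega
  rw [← h4, nInter]
  congr 1
  ext c
  simp only [mem_filter, mem_thru, empty_subset, singleton_subset_iff, card_eq_zero,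
    ← disjoint_iff_inter_eq_empty]
  tauto

theorem sum_disj_inter22 (hα : Fintype.card α = 22) (hB : IsSteinerSystem 3 6 B) {b : Finset α}
    (hb : b ∈ B) (X : Finset α) :
    ∑ d ∈ (thru B ∅).filter (fun c => Disjoint c b), (d ∩ X).card = 6 * (X \ b).card := by
  rw [sum_card_inter_eq, ← sum_filter_add_sum_filter_not X (· ∈ b), sum_eq_zero, zero_add,
    sum_congr rfl (g := fun _ => 6), sum_const, smul_eq_mul, mul_comm, filter_notMem_eq_sdiff]
  · intro p hp
    rw [filter_filter]
    exact card_disj_mem22 hα hB hb (mem_filter.1 hp).2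
  · intro p hp
    rw [card_eq_zero, filter_eq_empty_iff]
    intro d hd hpd
    exact disjoint_left.1 (mem_filter.1 hd).2 hpd (mem_filter.1 hp).2

theorem no_triangle22 (hα : Fintype.card α = 22) (hB : IsSteinerSystem 3 6 B) {b c d : Finset α}
    (hb : b ∈ B) (hc : c ∈ B) (hd : d ∈ B) (h1 : Disjoint c b) (h2 : Disjoint d b) :
    ¬ Disjoint d c := by
  intro h3
  have h := sum_disj_inter22 hα hB hb c
  set D := (thru B ∅).filter (fun c => Disjoint c b) with hD
  have hcD : c ∈ D := mem_filter.2 ⟨mem_thru.2 ⟨hc, empty_subset _⟩, h1⟩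
  have hdD : d ∈ D.erase c := mem_erase.2 ⟨by
    rintro rfl; exact not_disjoint_self22 hB hc h3, mem_filter.2 ⟨mem_thru.2 ⟨hd, empty_subset _⟩, h2⟩⟩
  rw [← add_sum_erase _ _ hcD, ← add_sum_erase _ _ hdD, inter_self, disjoint_iff_inter_eq_empty.1 h3,
    sdiff_eq_self_of_disjoint h1, hB.1 c hc, card_empty] at h
  have h4 := sum_le_card_nsmul ((D.erase c).erase d) (fun d => (d ∩ c).card) 2 (by
    intro x hx
    simp only [mem_erase, hD, mem_filter, mem_thru] at hx
    have := inter_card_lt hB hx.2.2.1.1 hc hx.2.1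
    omega)
  rw [card_erase_of_mem hdD, card_erase_of_mem hcD, card_disj22 hα hB hb, smul_eq_mul] at h4
  omega

theorem card_disj_disj22 (hα : Fintype.card α = 22) (hB : IsSteinerSystem 3 6 B) {b c : Finset α}
    (hb : b ∈ B) (hc : c ∈ B) (hne : b ≠ c) (h1 : ¬ Disjoint b c) :
    ((thru B ∅).filter fun d => Disjoint d b ∧ Disjoint d c).card = 4 := by
  have h := sum_disj_inter22 hα hB hb c
  have h0 := card_disj22 hα hB hb
  set D := (thru B ∅).filter (fun c => Disjoint c b) with hD
  have hcb : (c ∩ b).card = 2 := by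
    have := inter22 hα hB hc hb hne.symm
    rw [card_eq_zero, ← disjoint_iff_inter_eq_empty] at this
    exact this.resolve_left fun h => h1 h.symm
  have h5 := card_sdiff_add_card_inter c b
  rw [hcb, hB.1 c hc] at h5
  have hI : ∀ d ∈ D, (d ∩ c).card = 0 ∨ (d ∩ c).card = 2 := by
    intro d hd
    simp only [hD, mem_filter, mem_thru] at hd
    exact inter22 hα hB hd.1.1 hc (by rintro rfl; exact h1 hd.2.symm)
  have hlt : ∀ d ∈ D, (d ∩ c).card < 3 := fun d hd => by have := hI d hd; omega
  rw [sum_eq_sum_nInter _ _ 3 hlt (fun j => j)] at h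
  have h2 := sum_eq_sum_nInter _ _ 3 hlt (fun _ => 1)
  rw [← card_eq_sum_ones, h0] at h2
  have h3 : nInter D c 1 = 0 := by
    rw [nInter, card_eq_zero, filter_eq_empty_iff]
    intro d hd
    have := hI d hd
    omega
  simp only [sum_range_succ, range_zero, sum_empty] at h h2
  have h4 : nInter D c 0 = 4 := by omega
  rw [← h4, nInter, hD, filter_filter]
  congr 1
  ext d
  simp only [mem_filter, card_eq_zero, ← disjoint_iff_inter_eq_empty]

omit [Fintype α] [DecidableEq α] in
theorem blockGraph_adj {k t : ℕ} (hB : IsSteinerSystem t (k + 1) B) {b c : B} :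
    (blockGraph B).Adj b c ↔ Disjoint (b : Finset α) c := by
  rw [blockGraph, SimpleGraph.fromRel_adj]
  refine ⟨fun h => h.2.elim id fun h => h.symm, fun h => ⟨?_, Or.inl h⟩⟩
  rintro rfl
  rw [disjoint_self_iff_empty] at h
  have := hB.1 _ b.2
  simp [h] at this

theorem card_blocks22 (hα : Fintype.card α = 22) (hB : IsSteinerSystem 3 6 B) :
    Nat.card B = 77 := by
  rw [Nat.card_coe_set_eq, ncard_eq_card_thru, (lam22 hα hB).1 ∅ rfl]

theorem srg_of_ncard {V : Type*} [Fintype V] {G : SimpleGraph V} [DecidableRel G.Adj] {n k l m : ℕ}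
    (h0 : Nat.card V = n) (h1 : ∀ v, {w | G.Adj v w}.ncard = k)
    (h2 : ∀ v w, G.Adj v w → {u | G.Adj v u ∧ G.Adj w u}.ncard = l)
    (h3 : ∀ v w, v ≠ w → ¬ G.Adj v w → {u | G.Adj v u ∧ G.Adj w u}.ncard = m) :
    G.IsSRGWith n k l m where
  card := by rw [← h0, Nat.card_eq_fintype_card]
  regular := fun v => by
    rw [← h1 v, ← SimpleGraph.card_neighborSet_eq_degree, ← Nat.card_eq_fintype_card,
      Nat.card_coe_set_eq]; rfl
  of_adj := fun v w h => by
    rw [← h2 v w h, ← Nat.card_eq_fintype_card, Nat.card_coe_set_eq]; rfl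
  of_not_adj := fun v w h h' => by
    rw [← h3 v w h h', ← Nat.card_eq_fintype_card, Nat.card_coe_set_eq]; rfl

theorem blockGraph_srg (hα : Fintype.card α = 22) (hB : IsSteinerSystem 3 6 B) [Fintype B]
    [DecidableRel (blockGraph B).Adj] : (blockGraph B).IsSRGWith 77 16 0 4 := by
  apply srg_of_ncard (card_blocks22 hα hB)
  · intro b
    simp only [blockGraph_adj hB, disjoint_comm (a := (b : Finset α))]
    rw [ncard_subtype_eq B (fun c => Disjoint c b), card_disj22 hα hB b.2]
  · intro b c h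
    rw [Set.ncard_eq_zero, Set.eq_empty_iff_forall_notMem]
    intro d hd
    simp only [blockGraph_adj hB, Set.mem_ofPred_eq] at h hd
    exact no_triangle22 hα hB b.2 c.2 d.2 h.symm hd.1.symm hd.2.symm
  · intro b c hne h
    rw [blockGraph_adj hB] at h
    simp only [blockGraph_adj hB, disjoint_comm (a := (b : Finset α)),
      disjoint_comm (a := (c : Finset α))]
    rw [ncard_subtype_eq B (fun d => Disjoint d b ∧ Disjoint d c),
      card_disj_disj22 hα hB b.2 c.2 (fun e => hne (Subtype.ext e)) h]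

section pb
omit [Fintype α] [DecidableEq α]

theorem pb_nn : ¬ (pointBlockGraph B).Adj none none := SimpleGraph.irrefl _

theorem pb_np (a : α) : (pointBlockGraph B).Adj none (some (Sum.inl a)) := by
  simp [pointBlockGraph, SimpleGraph.fromRel_adj, pointBlockRel]

theorem pb_pn (a : α) : (pointBlockGraph B).Adj (some (Sum.inl a)) none := (pb_np a).symm

theorem pb_nb (b : B) : ¬ (pointBlockGraph B).Adj none (some (Sum.inr b)) := by
  simp [pointBlockGraph, SimpleGraph.fromRel_adj, pointBlockRel]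

theorem pb_bn (b : B) : ¬ (pointBlockGraph B).Adj (some (Sum.inr b)) none :=
  fun h => pb_nb b h.symm

theorem pb_pp (a a' : α) : ¬ (pointBlockGraph B).Adj (some (Sum.inl a)) (some (Sum.inl a')) := by
  simp [pointBlockGraph, SimpleGraph.fromRel_adj, pointBlockRel]

theorem pb_pb (a : α) (b : B) :
    (pointBlockGraph B).Adj (some (Sum.inl a)) (some (Sum.inr b)) ↔ a ∈ (b : Finset α) := by
  simp [pointBlockGraph, SimpleGraph.fromRel_adj, pointBlockRel]

theorem pb_bp (a : α) (b : B) :
    (pointBlockGraph B).Adj (some (Sum.inr b)) (some (Sum.inl a)) ↔ a ∈ (b : Finset α) := by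
  rw [SimpleGraph.adj_comm, pb_pb]

theorem pb_bb {k t : ℕ} (hB : IsSteinerSystem t (k + 1) B) (b c : B) :
    (pointBlockGraph B).Adj (some (Sum.inr b)) (some (Sum.inr c)) ↔ Disjoint (c : Finset α) b := by
  rw [disjoint_comm, ← blockGraph_adj hB]
  simp [pointBlockGraph, blockGraph, SimpleGraph.fromRel_adj, pointBlockRel]

end pb

theorem card_filter_mem22 (hα : Fintype.card α = 22) (hB : IsSteinerSystem 3 6 B) (a : α) :
    ((thru B ∅).filter fun c => a ∈ c).card = 21 := by
  rw [← (lam22 hα hB).2.1 {a} (by simp)]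
  congr 1
  ext c; simp [mem_thru]

theorem card_filter_mem_mem22 (hα : Fintype.card α = 22) (hB : IsSteinerSystem 3 6 B) {a a' : α}
    (h : a ≠ a') : ((thru B ∅).filter fun c => a ∈ c ∧ a' ∈ c).card = 5 := by
  rw [← (lam22 hα hB).2.2 {a, a'} (card_pair h)]
  congr 1
  ext c; simp [mem_thru, insert_subset_iff]

theorem pointBlockGraph_srg (hα : Fintype.card α = 22) (hB : IsSteinerSystem 3 6 B) [Fintype B]
    [DecidableRel (pointBlockGraph B).Adj] : (pointBlockGraph B).IsSRGWith 100 22 0 6 := by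
  classical
  have hα' : Nat.card α = 22 := by rw [Nat.card_eq_fintype_card, hα]
  have e1 : ∀ b : B, {a | a ∈ (b : Finset α)}.ncard = 6 := fun b => by
    rw [← hB.1 _ b.2, ← Set.ncard_coe_finset]; rfl
  apply srg_of_ncard
  · rw [Finite.card_option, Nat.card_sum, hα', card_blocks22 hα hB]
  · rintro (_ | a | b) <;> rw [ncard_option_sum] <;>
      simp only [Set.mem_ofPred_eq, pb_nn, pb_np, pb_pn, pb_nb, pb_bn, pb_pp, pb_pb, pb_bp, pb_bb hB]
    · simp [hα]
    · rw [ncard_subtype_eq B (fun c => a ∈ c), card_filter_mem22 hα hB]; simp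
    · rw [ncard_subtype_eq B (fun c => Disjoint c b), card_disj22 hα hB b.2, e1]; simp
  · intro v w h
    rw [Set.ncard_eq_zero, Set.eq_empty_iff_forall_notMem]
    rintro u ⟨h1, h2⟩
    rcases v with _ | a | b <;> rcases w with _ | a' | b' <;> rcases u with _ | a'' | b'' <;>
      simp only [pb_nn, pb_np, pb_pn, pb_nb, pb_bn, pb_pp, pb_pb, pb_bp, pb_bb hB] at h h1 h2
    · exact disjoint_left.1 h2 h1 h
    · exact disjoint_left.1 h1 h2 h
    · exact disjoint_left.1 h h2 h1
    · exact no_triangle22 hα hB b.2 b'.2 b''.2 h h1 h2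
  · rintro (_ | a | b) (_ | a' | b') hne h <;> rw [ncard_option_sum] <;>
      simp only [Set.mem_ofPred_eq, pb_nn, pb_np, pb_pn, pb_nb, pb_bn, pb_pp, pb_pb, pb_bp,
        pb_bb hB, not_true_eq_false, ne_eq, true_and, and_true, false_and, and_false,
        Set.ofPred_false, Set.ncard_empty, if_true, if_false] at h hne ⊢
    · rw [e1]
    · rw [ncard_subtype_eq B (fun c => a ∈ c ∧ a' ∈ c),
        card_filter_mem_mem22 hα hB (fun e => hne (by rw [e]))]
    · simp only [and_comm (a := a ∈ _)]
      rw [ncard_subtype_eq B (fun c => Disjoint c b' ∧ a ∈ c), card_disj_mem22 hα hB b'.2 h]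
    · rw [e1]
    · rw [ncard_subtype_eq B (fun c => Disjoint c b ∧ a' ∈ c), card_disj_mem22 hα hB b.2 h]
    · have hne' : (b : Finset α) ≠ b' := fun e => hne (by rw [Subtype.ext e])
      rw [ncard_subtype_eq B (fun d => Disjoint d b ∧ Disjoint d b'),
        card_disj_disj22 hα hB b.2 b'.2 hne' (fun e => h e.symm)]
      have := inter22 hα hB b.2 b'.2 hne'
      rw [card_eq_zero, ← disjoint_iff_inter_eq_empty] at this
      have h2 := this.resolve_left fun e => h e.symm
      have h3 : {a | a ∈ (b : Finset α) ∧ a ∈ (b' : Finset α)}.ncard = 2 := by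
        rw [← h2, ← Set.ncard_coe_finset]
        congr 1
        ext a; simp
      rw [h3]

end Cfsg.Lib.Steiner
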