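import Mathlib
import Cfsg.Agent.Lib.Steiner.Chapman
import Cfsg.Agent.Lib.Steiner.Frames

/-! Jordan's theorem on sharply multiply transitive groups. -/

set_option autoImplicit false

namespace Cfsg.Lib.Steiner

open MulAction Subgroup

variable {G α : Type*} [Group G] [MulAction G α]

/-- Only the identity fixes `k` distinct points. -/
def Sharp (G α : Type*) [Group G] [MulAction G α] (k : ℕ) : Prop :=
  ∀ (x : Fin k ↪ α) (g : G), (∀ i, g • x i = x i) → g = 1

theorem sharp_of_stabilizer {k : ℕ} (h : ∀ x : Fin k ↪ α, stabilizer G x = ⊥) : Sharp G α k :=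
  fun x _ hg => Subgroup.mem_bot.1 (h x ▸ mem_stabilizer_emb.2 hg)

theorem Sharp.stabilizer_eq_bot {k : ℕ} (h : Sharp G α k) (x : Fin k ↪ α) : stabilizer G x = ⊥ :=
  eq_bot_iff.2 fun g hg => h x g (mem_stabilizer_emb.1 hg)

theorem Sharp.faithful [Finite α] {k : ℕ} (h : Sharp G α k) (hk : k ≤ Nat.card α) :
    FaithfulSMul G α := by
  have := Fintype.ofFinite α
  obtain ⟨x⟩ : Nonempty (Fin k ↪ α) :=
    Function.Embedding.nonempty_of_card_le (by simpa using hk)
  refine ⟨fun {g g'} hg => ?_⟩
  rw [← inv_mul_eq_one]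
  exact h x _ fun i => by rw [mul_smul, ← hg, inv_smul_smul]

theorem Sharp.card [Finite α] {k : ℕ} (h : Sharp G α k) (hk : k ≤ Nat.card α)
    [IsMultiplyPretransitive G α k] : Nat.card G = (Nat.card α).descFactorial k := by
  have := Fintype.ofFinite α
  have := h.faithful hk
  have : Finite G := Finite.of_injective _ (MulAction.toPerm_injective (α := G) (β := α))
  obtain ⟨x⟩ : Nonempty (Fin k ↪ α) :=
    Function.Embedding.nonempty_of_card_le (by simpa using hk)
  rw [card_eq_of_multiplyPretransitive x, h.stabilizer_eq_bot x]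
  simp

theorem Sharp.ofStabilizer {k : ℕ} (h : Sharp G α (k + 1)) (a : α) :
    Sharp (stabilizer G a) (SubMulAction.ofStabilizer G a) k := by
  intro x g hg
  apply Subtype.ext
  apply h (SubMulAction.ofStabilizer.snoc x)
  rw [Fin.forall_fin_succ']
  simp only [SubMulAction.ofStabilizer.snoc_castSucc, SubMulAction.ofStabilizer.snoc_last]
  exact ⟨fun i => congrArg Subtype.val (hg i), g.2⟩

/-- Four distinct points as an embedding. -/
def emb4 {a b c d : α} (h1 : a ≠ b) (h2 : a ≠ c) (h3 : a ≠ d) (h4 : b ≠ c) (h5 : b ≠ d)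
    (h6 : c ≠ d) : Fin 4 ↪ α :=
  ⟨![a, b, c, d], by
    intro i j
    fin_cases i <;> fin_cases j <;> simp [*, h1.symm, h2.symm, h3.symm, h4.symm, h5.symm, h6.symm]⟩

theorem Sharp.four (h : Sharp G α 4) {a b c d : α} (h1 : a ≠ b) (h2 : a ≠ c) (h3 : a ≠ d)
    (h4 : b ≠ c) (h5 : b ≠ d) (h6 : c ≠ d) {g : G} (ha : g • a = a) (hb : g • b = b)
    (hc : g • c = c) (hd : g • d = d) : g = 1 := by
  apply h (emb4 h1 h2 h3 h4 h5 h6)
  intro i
  fin_cases i
  exacts [ha, hb, hc, hd]

theorem exists_smul_four [IsMultiplyPretransitive G α 4] {a b c d a' b' c' d' : α} (h1 : a ≠ b)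
    (h2 : a ≠ c) (h3 : a ≠ d) (h4 : b ≠ c) (h5 : b ≠ d) (h6 : c ≠ d) (h1' : a' ≠ b')
    (h2' : a' ≠ c') (h3' : a' ≠ d') (h4' : b' ≠ c') (h5' : b' ≠ d') (h6' : c' ≠ d') :
    ∃ g : G, g • a = a' ∧ g • b = b' ∧ g • c = c' ∧ g • d = d' := by
  obtain ⟨g, hg⟩ := exists_smul_eq G (emb4 h1 h2 h3 h4 h5 h6) (emb4 h1' h2' h3' h4' h5' h6')
  rw [DFunLike.ext_iff] at hg
  exact ⟨g, hg 0, hg 1, hg 2, hg 3⟩

theorem jordan_four [Finite α] (h4 : 4 ≤ Nat.card α) [IsMultiplyPretransitive G α 4]
    (hs : Sharp G α 4) :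
    Nat.card α = 4 ∨ Nat.card α = 5 ∨ Nat.card α = 6 ∨ Nat.card α = 11 := by
  classical
  have := Fintype.ofFinite α
  have := hs.faithful h4
  have : Finite G := Finite.of_injective _ (MulAction.toPerm_injective (α := G) (β := α))
  by_cases h7 : Nat.card α < 7
  · omega
  obtain ⟨e⟩ : Nonempty (Fin 4 ↪ α) :=
    Function.Embedding.nonempty_of_card_le (by simpa using h4)
  have hxy : e 0 ≠ e 1 := e.injective.ne (by decide)
  have hxc : e 0 ≠ e 2 := e.injective.ne (by decide)
  have hxd : e 0 ≠ e 3 := e.injective.ne (by decide)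
  have hyc : e 1 ≠ e 2 := e.injective.ne (by decide)
  have hyd : e 1 ≠ e 3 := e.injective.ne (by decide)
  have hcd : e 2 ≠ e 3 := e.injective.ne (by decide)
  generalize e 0 = x at *
  generalize e 1 = y at *
  generalize e 2 = c at *
  generalize e 3 = d at *
  obtain ⟨t, htx, hty, htc, htd⟩ := exists_smul_four (G := G) hxy hxc hxd hyc hyd hcd
    hxy hxd hxc hyd hyc hcd.symm
  have htt : t * t = 1 := hs.four hxy hxc hxd hyc hyd hcd (by rw [mul_smul, htx, htx])
    (by rw [mul_smul, hty, hty]) (by rw [mul_smul, htc, htd]) (by rw [mul_smul, htd, htc])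
  have htt' : ∀ w : α, t • t • w = w := fun w => by rw [← mul_smul, htt, one_smul]
  have ht1 : t ≠ 1 := by
    rintro rfl
    exact hcd (by simpa using htc)
  set F : Finset α := Finset.univ.filter fun w => t • w = w with hF
  have hmF : ∀ w, w ∈ F ↔ t • w = w := fun w => by simp [hF]
  have hF3 : F.card ≤ 3 := by
    by_contra h
    obtain ⟨f⟩ : Nonempty (Fin 4 ↪ F) :=
      Function.Embedding.nonempty_of_card_le (by simp; omega)
    exact ht1 (hs (f.trans (Function.Embedding.subtype _)) t fun i => (hmF _).1 (f i).2)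
  have hF2 : 2 ≤ F.card := by
    have : ({x, y} : Finset α) ⊆ F := by
      intro w hw
      simp only [Finset.mem_insert, Finset.mem_singleton] at hw
      rcases hw with rfl | rfl <;> rw [hmF] <;> assumption
    have h := Finset.card_le_card this
    rwa [Finset.card_pair hxy] at h
  obtain ⟨a, ha⟩ : ∃ a, a ∉ insert c (insert d F) := by
    apply exists_not_mem_of_card_lt
    have h1 := Finset.card_insert_le c (insert d F)
    have h2 := Finset.card_insert_le d F
    rw [← Nat.card_eq_fintype_card]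
    omega
  simp only [Finset.mem_insert, not_or, hmF] at ha
  obtain ⟨hac, had, hab⟩ := ha
  set b := t • a with hb
  have htb : t • b = a := htt' a
  have hbc : b ≠ c := fun h => had (by rw [← htb, h, htc])
  have hbd : b ≠ d := fun h => hac (by rw [← htb, h, htd])
  have hcF : c ∉ F := by rw [hmF, htc]; exact hcd.symm
  have hdF : d ∉ F := by rw [hmF, htd]; exact hcd
  have haF : a ∉ F := by rw [hmF]; exact hab
  have hbF : b ∉ F := by rw [hmF, htb]; exact Ne.symm hab
  set H : Subgroup G := centralizer {t} ⊓ stabilizer G a with hH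
  have hmH : ∀ g, g ∈ H ↔ t * g = g * t ∧ g • a = a := fun g => by
    simp [hH, mem_centralizer_iff]
  have hHb : ∀ g ∈ H, g • b = b := fun g hg => by
    rw [hmH] at hg
    rw [hb, ← mul_smul, ← hg.1, mul_smul, hg.2]
  have hHF : ∀ g ∈ H, ∀ w, g • w ∈ F ↔ w ∈ F := fun g hg w => by
    rw [hmH] at hg
    rw [hmF, hmF, ← mul_smul, hg.1, mul_smul, smul_left_cancel_iff]
  set S : Finset α := (insert a (insert b F))ᶜ with hS
  have hmS : ∀ w, w ∈ S ↔ w ≠ a ∧ w ≠ b ∧ w ∉ F := fun w => by simp [hS]
  have hScard : S.card + 2 + F.card = Nat.card α := by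
    rw [hS, Finset.card_compl, Finset.card_insert_of_notMem (by simp [haF, Ne.symm hab]),
      Finset.card_insert_of_notMem hbF, Nat.card_eq_fintype_card]
    have := Finset.card_le_univ (insert a (insert b F))
    rw [Finset.card_insert_of_notMem (by simp [haF, Ne.symm hab]),
      Finset.card_insert_of_notMem hbF] at this
    omega
  have hcardH : Nat.card H = S.card := by
    rw [card_eq_of_orbit (G := H) c S]
    · have : stabilizer H c = ⊥ := by
        rw [eq_bot_iff]
        intro g hg
        have hgc : (g : G) • c = c := hg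
        have hg' := (hmH _).1 g.2
        exact Subtype.ext (hs.four (Ne.symm hab) hac had hbc hbd hcd hg'.2 (hHb _ g.2) hgc
          (by rw [← htc, ← mul_smul, ← hg'.1, mul_smul, hgc]))
      simp [this]
    · intro w
      rw [hmS]
      constructor
      · rintro ⟨hwa, hwb, hwF⟩
        have hw : w ≠ t • w := fun h => hwF ((hmF _).2 h.symm)
        have hwa' : a ≠ t • w := fun h => hwb (by rw [hb, h, htt'])
        have hwb' : b ≠ t • w := fun h => hwa (by rw [← htb, h, htt'])
        obtain ⟨g, hga, hgb, hgc, hgd⟩ := exists_smul_four (G := G) (Ne.symm hab) hac had hbc hbd hcd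
          (Ne.symm hab) hwa.symm hwa' hwb.symm hwb' hw
        refine ⟨⟨g, (hmH _).2 ⟨?_, hga⟩⟩, hgc⟩
        have : (g * t)⁻¹ * (t * g) = 1 := by
          apply hs.four (Ne.symm hab) hac had hbc hbd hcd <;>
            rw [mul_smul, inv_smul_eq_iff, mul_smul, mul_smul]
          · rw [hga, ← hb, hgb]
          · rw [hgb, htb, hga]
          · rw [hgc, htc, hgd]
          · rw [hgd, htd, hgc, htt']
        exact (inv_mul_eq_one.1 this).symm
      · rintro ⟨g, rfl⟩
        refine ⟨fun h => hac ?_, fun h => hbc ?_, fun h => hcF ((hHF _ g.2 c).1 h)⟩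
        · exact ((smul_left_cancel_iff (g : G)).1 (h.trans ((hmH _).1 g.2).2.symm)).symm
        · exact ((smul_left_cancel_iff (g : G)).1 (h.trans (hHb _ g.2).symm)).symm
  have hdvd : Nat.card H ∣ F.card * F.card - F.card := by
    rw [← Finset.offDiag_card, ← Set.ncard_coe_finset]
    apply card_dvd_ncard_of_free
    · rintro g hg ⟨u, v⟩ huv
      simp only [Finset.mem_coe, Finset.mem_offDiag, Prod.smul_mk, hHF g hg, ne_eq,
        smul_left_cancel_iff] at huv ⊢
      exact huv
    · rintro g hg ⟨u, v⟩ huv h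
      simp only [Finset.mem_coe, Finset.mem_offDiag, Prod.smul_mk, Prod.mk.injEq] at huv h
      exact hs.four (Ne.symm hab) (fun e => haF (e ▸ huv.1)) (fun e => haF (e ▸ huv.2.1))
        (fun e => hbF (e ▸ huv.1)) (fun e => hbF (e ▸ huv.2.1)) huv.2.2 ((hmH _).1 hg).2
        (hHb _ hg) h.1 h.2
  have heven : 2 ∣ Fᶜ.card := by
    have ho : orderOf t = 2 := orderOf_eq_prime (by rw [pow_two, htt]) ht1
    rw [← ho, ← Nat.card_zpowers, ← Set.ncard_coe_finset]
    have hz : ∀ g ∈ zpowers t, g = 1 ∨ g = t := by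
      intro g hg
      rw [mem_zpowers_iff_mem_range_orderOf, ho] at hg
      simp only [Finset.mem_image, Finset.mem_range] at hg
      obtain ⟨i, hi, rfl⟩ := hg
      interval_cases i <;> simp
    apply card_dvd_ncard_of_free
    · intro g hg w hw
      rcases hz g hg with rfl | rfl
      · simpa using hw
      · simp only [Finset.mem_coe, Finset.mem_compl, hmF, smul_left_cancel_iff] at hw ⊢
        exact hw
    · intro g hg w hw h
      rcases hz g hg with rfl | rfl
      · rfl
      · simp only [Finset.mem_coe, Finset.mem_compl, hmF] at hw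
        exact absurd h hw
  rw [Finset.card_compl, ← Nat.card_eq_fintype_card] at heven
  rw [hcardH] at hdvd
  obtain hf | hf : F.card = 2 ∨ F.card = 3 := by omega
  · rw [hf] at hdvd
    have := Nat.le_of_dvd (by norm_num) hdvd
    omega
  rw [hf] at hdvd
  have h6 := Nat.le_of_dvd (by norm_num) hdvd
  have h5 : S.card ≠ 4 := by
    intro h; rw [h] at hdvd; norm_num at hdvd
  suffices S.card ≠ 2 by omega
  intro h2
  have hSeq : ({c, d} : Finset α) = S := by
    apply Finset.eq_of_subset_of_card_le
    · intro w hw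
      simp only [Finset.mem_insert, Finset.mem_singleton] at hw
      rcases hw with rfl | rfl <;> rw [hmS]
      · exact ⟨Ne.symm hac, hbc.symm, hcF⟩
      · exact ⟨Ne.symm had, hbd.symm, hdF⟩
    · rw [h2, Finset.card_pair hcd]
  obtain ⟨z, hzF, hz⟩ := Finset.exists_mem_notMem_of_card_lt_card (s := {x, y}) (t := F)
    (by rw [Finset.card_pair hxy]; omega)
  simp only [Finset.mem_insert, Finset.mem_singleton, not_or] at hz
  have hxF : x ∈ F := (hmF _).2 htx
  have hyF : y ∈ F := (hmF _).2 hty
  obtain ⟨h, hha, hhb, hhc, hhd⟩ := exists_smul_four (G := G) (Ne.symm hab) hac had hbc hbd hcd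
    (Ne.symm hab) hac (fun e => haF (e ▸ hxF)) hbc (fun e => hbF (e ▸ hxF)) hxc.symm
  have key : ∀ w ∈ F, w ≠ x → (t * (h * t * h⁻¹)) • w = w := by
    intro w hw hwx
    have : h⁻¹ • w ∈ F := by
      by_contra hn
      have : h⁻¹ • w ∈ S := by
        rw [hmS]
        refine ⟨fun e => haF ?_, fun e => hbF ?_, hn⟩
        · rw [inv_smul_eq_iff, hha] at e; exact e ▸ hw
        · rw [inv_smul_eq_iff, hhb] at e; exact e ▸ hw
      rw [← hSeq] at this
      simp only [Finset.mem_insert, Finset.mem_singleton, inv_smul_eq_iff, hhc, hhd] at this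
      rcases this with e | e
      · exact hcF (e ▸ hw)
      · exact hwx e
    rw [mul_smul, mul_smul, mul_smul, (hmF _).1 this, smul_inv_smul, (hmF _).1 hw]
  have hone : t * (h * t * h⁻¹) = 1 := by
    refine hs.four (Ne.symm hab) (fun e => haF (e ▸ hyF)) (fun e => haF (e ▸ hzF))
      (fun e => hbF (e ▸ hyF)) (fun e => hbF (e ▸ hzF)) (Ne.symm hz.2) ?_ ?_ (key y hyF hxy.symm)
      (key z hzF hz.1)
    · rw [mul_smul, mul_smul, mul_smul, inv_smul_eq_iff.2 hha.symm, ← hb, hhb, htb]
    · rw [mul_smul, mul_smul, mul_smul, inv_smul_eq_iff.2 hhb.symm, htb, hha]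
  have := congrArg (· • c) hone
  simp only [mul_smul, one_smul] at this
  rw [inv_smul_eq_iff.2 hhc.symm, htc, hhd, htx] at this
  exact hxc this

universe u v

theorem jordan_add_four (k : ℕ) : ∀ {G : Type u} {α : Type v} [Group G] [MulAction G α] [Finite α],
    k + 4 ≤ Nat.card α → IsMultiplyPretransitive G α (k + 4) → Sharp G α (k + 4) →
    Nat.card α = k + 4 ∨ Nat.card α = k + 5 ∨ Nat.card α = k + 6 ∨ Nat.card α = k + 11 := by
  induction k with
  | zero =>
    intro G α _ _ _ h1 h2 h3
    simpa using jordan_four h1 h3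
  | succ k ih =>
    intro G α _ _ _ h1 h2 h3
    obtain ⟨a⟩ : Nonempty α := (Nat.card_pos_iff.1 (by omega)).1
    have : IsPretransitive G α := is_one_pretransitive_iff.1
      (isMultiplyPretransitive_of_le (n := k + 1 + 4) (by omega) h1)
    have h4 := SubMulAction.nat_card_ofStabilizer_add_one_eq G a
    have h5 := ih (G := stabilizer G a) (α := SubMulAction.ofStabilizer G a) (by omega)
      (SubMulAction.ofStabilizer.isMultiplyPretransitive.1 (by
        rw [show (k + 4).succ = k + 1 + 4 by omega]; exact h2))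
      (Sharp.ofStabilizer (by rw [show k + 4 + 1 = k + 1 + 4 by omega]; exact h3) a)
    omega

theorem jordan_ne_add_thirteen (k : ℕ) : ∀ {G : Type u} {α : Type v} [Group G] [MulAction G α]
    [Finite α], IsMultiplyPretransitive G α (k + 6) → Sharp G α (k + 6) →
    Nat.card α ≠ k + 13 := by
  induction k with
  | zero =>
    intro G α _ _ _ h2 h3 h1
    have := h3.faithful (by omega)
    have : IsPretransitive G α := is_one_pretransitive_iff.1
      (isMultiplyPretransitive_of_le (n := 0 + 6) (by omega) (by omega))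
    refine false_of_degree_13 (G := G) h1 ?_
    rw [h3.card (by omega), h1]
    rfl
  | succ k ih =>
    intro G α _ _ _ h2 h3 h1
    obtain ⟨a⟩ : Nonempty α := (Nat.card_pos_iff.1 (by omega)).1
    have : IsPretransitive G α := is_one_pretransitive_iff.1
      (isMultiplyPretransitive_of_le (n := k + 1 + 6) (by omega) (by omega))
    have h4 := SubMulAction.nat_card_ofStabilizer_add_one_eq G a
    exact ih (G := stabilizer G a) (α := SubMulAction.ofStabilizer G a)
      (SubMulAction.ofStabilizer.isMultiplyPretransitive.1 (by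
        rw [show (k + 6).succ = k + 1 + 6 by omega]; exact h2))
      (Sharp.ofStabilizer (by rw [show k + 6 + 1 = k + 1 + 6 by omega]; exact h3) a) (by omega)

theorem sharp_four_eleven [Finite α] (hα : Nat.card α = 11) [IsMultiplyPretransitive G α 4]
    (hs : Sharp G α 4) : IsSimpleGroup G ∧ Nat.card G = 7920 := by
  have := hs.faithful (by omega)
  have hG : Nat.card G = 7920 := by rw [hs.card (by omega), hα]; rfl
  exact ⟨simple_of_degree_11 hα (isMultiplyPretransitive_of_le (n := 4) (by omega) (by omega)) hG,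
    hG⟩

theorem sharp_five_twelve [Finite α] (hα : Nat.card α = 12) [IsMultiplyPretransitive G α 5]
    (hs : Sharp G α 5) : IsSimpleGroup G ∧ Nat.card G = 95040 := by
  have := hs.faithful (by omega)
  have hG : Nat.card G = 95040 := by rw [hs.card (by omega), hα]; rfl
  exact ⟨simple_of_degree_12 hα (isMultiplyPretransitive_of_le (n := 5) (by omega) (by omega)) hG,
    hG⟩

end Cfsg.Lib.Steiner
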