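import Mathlib
import Cfsg.Agent.Lib.Steiner.Witt22
import Cfsg.Agent.Lib.Steiner.Jordan

/-! The even automorphisms of S(3, 6, 22). -/

set_option autoImplicit false
set_option linter.unusedSectionVars false

namespace Cfsg.Lib.Steiner

open Finset MulAction
open scoped Pointwise

variable {α : Type*} [Fintype α] [DecidableEq α] {B : Set (Finset α)}

theorem blk_trans_swap {n : ℕ} (e : α ≃ Fin n) (p q : Fin n) (x : ℕ) :
    blk (e.trans (Equiv.swap p q)) x = blk e (sw p q x) := by
  ext a
  rw [mem_blk, mem_blk, ← testBit_sw p q x, Equiv.trans_apply, Equiv.swap_apply_self]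

/-- A product of transpositions. -/
def swapsPerm {n : ℕ} : List (Fin n × Fin n) → Equiv.Perm (Fin n)
  | [] => 1
  | x :: L => swapsPerm L * Equiv.swap x.1 x.2

/-- The corresponding operation on bit masks. -/
def swapsMask {n : ℕ} : List (Fin n × Fin n) → ℕ → ℕ
  | [], y => y
  | x :: L, y => sw x.1 x.2 (swapsMask L y)

theorem blk_trans_swapsPerm {n : ℕ} (L : List (Fin n × Fin n)) :
    ∀ (e : α ≃ Fin n) (y : ℕ), blk (e.trans (swapsPerm L)) y = blk e (swapsMask L y) := by
  induction L with
  | nil => intro e y; rfl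
  | cons x L ih =>
    intro e y
    rw [swapsMask, ← blk_trans_swap, ← ih]
    rfl

theorem sign_swapsPerm {n : ℕ} (L : List (Fin n × Fin n)) (h : ∀ x ∈ L, x.1 ≠ x.2) :
    Equiv.Perm.sign (swapsPerm L) = (-1) ^ L.length := by
  induction L with
  | nil => simp [swapsPerm]
  | cons x L ih =>
    rw [swapsPerm, map_mul, ih fun y hy => h y (List.mem_cons_of_mem _ hy),
      Equiv.Perm.sign_swap (h x List.mem_cons_self), List.length_cons, pow_succ]

/-- An odd automorphism of the labelled system. -/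
def odd22 : List (Fin 22 × Fin 22) :=
  [(3, 4), (7, 21), (8, 12), (9, 19), (10, 14), (11, 18), (15, 16)]

theorem odd22_ok : ∀ c ∈ tg22, pc 22 (swapsMask odd22 c) = 6 ∧
    ∀ r ∈ tg22, pc 22 (swapsMask odd22 c &&& r) % 2 = 0 := by
  decide +kernel

theorem sign_odd22 : Equiv.Perm.sign (swapsPerm odd22) = -1 := by
  rw [sign_swapsPerm _ (by decide +kernel)]
  rfl

theorem exists_odd_aut22 (hα : Fintype.card α = 22) (hB : IsSteinerSystem 3 6 B) :
    ∃ g ∈ setSystemAut B, Equiv.Perm.sign g = -1 := by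
  obtain ⟨x, b, z, hb, hx, hz⟩ := exists_frame hB (s := 5) (by omega) (by omega) (by omega)
  obtain ⟨e, _, _, h⟩ := lab22' hα hB x b z hb hx hz
  have h' := blk_char_of_char (char22 hα hB (e := e.trans (swapsPerm odd22)) fun c hc => by
    rw [blk_trans_swapsPerm, h]; exact odd22_ok c hc)
  refine ⟨_, mem_aut_of_char h' h, ?_⟩
  have := Equiv.Perm.sign_symm_trans_trans (swapsPerm odd22) e.symm
  rw [Equiv.symm_symm] at this
  exact this.trans sign_odd22

/-- The even automorphisms. -/
def evenAut (B : Set (Finset α)) : Subgroup (setSystemAut B) :=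
  (Equiv.Perm.sign.comp (setSystemAut B).subtype).ker

theorem index_evenAut22 (hα : Fintype.card α = 22) (hB : IsSteinerSystem 3 6 B) :
    (evenAut B).index = 2 := by
  rw [evenAut, Subgroup.index_ker, MonoidHom.range_eq_top.2, Subgroup.card_top]
  · simp
  · intro u
    rcases Int.units_eq_one_or u with rfl | rfl
    · exact ⟨1, map_one _⟩
    · obtain ⟨g, hg, h⟩ := exists_odd_aut22 hα hB
      exact ⟨⟨g, hg⟩, h⟩

theorem card_evenAut22 (hα : Fintype.card α = 22) (hB : IsSteinerSystem 3 6 B) :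
    Nat.card (evenAut B) = 443520 := by
  have := (evenAut B).index_mul_card
  rw [index_evenAut22 hα hB, card_aut22 hα hB] at this
  omega

/-- The even automorphisms are still transitive on triples of points. -/
theorem trans_evenAut22 (hα : Fintype.card α = 22) (hB : IsSteinerSystem 3 6 B) :
    IsMultiplyPretransitive (evenAut B) α 3 := by
  have h3 := trans22 hα hB
  obtain ⟨x0, b, z, hb, hx0, hz⟩ := exists_frame hB (s := 5) (by omega) (by omega) (by omega)
  obtain ⟨e, he, _, h⟩ := lab22' hα hB x0 b z hb hx0 hz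
  have h' := blk_char_of_char (char22 hα hB (e := e.trans (swapsPerm odd22)) fun c hc => by
    rw [blk_trans_swapsPerm, h]; exact odd22_ok c hc)
  let g0 : setSystemAut B := ⟨_, mem_aut_of_char h' h⟩
  have hg0 : Equiv.Perm.sign (g0 : Equiv.Perm α) = -1 := by
    have := Equiv.Perm.sign_symm_trans_trans (swapsPerm odd22) e.symm
    rw [Equiv.symm_symm] at this
    exact this.trans sign_odd22
  let y : Fin 3 ↪ α := (Fin.castLEEmb (by norm_num : 3 ≤ 22)).trans e.symm.toEmbedding
  have hy : ∀ i, g0 • y i = y i := by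
    intro i
    change e.symm (swapsPerm odd22 (e (e.symm _))) = e.symm _
    rw [Equiv.apply_symm_apply]
    congr 1
    fin_cases i <;> decide +kernel
  have key : ∀ x : Fin 3 ↪ α, ∃ g : setSystemAut B, g ∈ evenAut B ∧ ∀ i, g • y i = x i := by
    intro x
    obtain ⟨g, hg⟩ := h3.exists_smul_eq y x
    have hg' : ∀ i, g • y i = x i := DFunLike.ext_iff.1 hg
    rcases Int.units_eq_one_or (Equiv.Perm.sign (g : Equiv.Perm α)) with h1 | h1
    · exact ⟨g, h1, hg'⟩
    · refine ⟨g * g0, ?_, fun i => by rw [mul_smul, hy, hg']⟩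
      change Equiv.Perm.sign ((g : Equiv.Perm α) * (g0 : Equiv.Perm α)) = 1
      rw [map_mul, h1, hg0]; simp
  refine ⟨fun x x' => ?_⟩
  obtain ⟨g, hg, h1⟩ := key x
  obtain ⟨g', hg', h1'⟩ := key x'
  refine ⟨⟨g' * g⁻¹, mul_mem hg' (inv_mem hg)⟩, DFunLike.ext _ _ fun i => ?_⟩
  change (g' * g⁻¹) • x i = x' i
  rw [mul_smul, ← h1, inv_smul_smul, h1']

theorem simple_evenAut22 (hα : Fintype.card α = 22) (hB : IsSteinerSystem 3 6 B) :
    IsSimpleGroup (evenAut B) := by
  have := trans_evenAut22 hα hB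
  have hα' : Nat.card α = 22 := by rw [Nat.card_eq_fintype_card, hα]
  exact simple_of_degree_22 hα'
    (isMultiplyPretransitive_of_le (n := 3) (by omega) (by omega)) (card_evenAut22 hα hB)

end Cfsg.Lib.Steiner
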