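import Mathlib
import Cfsg.Agent.Lib.Steiner.Graphs
import Cfsg.Agent.Lib.Steiner.Witt22

/-! Counting tools for triangle-free strongly regular graphs; the graph on 100 vertices. -/

set_option autoImplicit false
set_option linter.unusedSectionVars false

namespace Cfsg.Lib.Steiner

open Finset

section design
variable {α β : Type*} [Fintype α] [DecidableEq α] [Fintype β] [DecidableEq β]

theorem steiner_of_family {W : Type*} [Fintype W] (hα : Fintype.card α = 22)
    (hW : Fintype.card W = 77) (f : W → Finset α) (h6 : ∀ w, (f w).card = 6)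
    (h2 : ∀ w w', w ≠ w' → (f w ∩ f w').card ≤ 2) :
    Function.Injective f ∧ IsSteinerSystem 3 6 (Set.range f) := by
  have hinj : Function.Injective f := by
    intro w w' h
    by_contra hne
    have := h2 w w' hne
    rw [← h, inter_self, h6] at this
    omega
  refine ⟨hinj, by rintro _ ⟨w, rfl⟩; exact h6 w, ?_⟩
  have hle : ∀ u ∈ powersetCard 3 (univ : Finset α), (thru (Set.range f) (∅ ∪ u)).card ≤ 1 := by
    intro u hu
    rw [card_le_one]
    intro b hb c hc
    rw [empty_union, mem_thru] at hb hc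
    obtain ⟨⟨w, rfl⟩, hb⟩ := hb
    obtain ⟨⟨w', rfl⟩, hc⟩ := hc
    by_contra hne
    have h3 := h2 w w' (by rintro rfl; exact hne rfl)
    have h4 := card_le_card (subset_inter hb hc)
    rw [(mem_powersetCard.1 hu).2] at h4
    omega
  have h := sum_choose_inter (Set.range f) ∅ univ 3
  have h0 : (thru (Set.range f) ∅).card = 77 := by
    rw [← ncard_eq_card_thru, Set.ncard_range_of_injective hinj, Nat.card_eq_fintype_card, hW]
  rw [sum_congr rfl (g := fun _ => 20) (by
    intro c hc
    obtain ⟨w, rfl⟩ := (mem_thru.1 hc).1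
    rw [inter_univ, h6]; rfl), sum_const, h0] at h
  have h5 := (sum_eq_sum_iff_of_le hle).1 (by
    rw [← h, sum_const, card_powersetCard, card_univ, hα]; rfl)
  intro s hs
  have := h5 s (mem_powersetCard.2 ⟨subset_univ _, hs⟩)
  rw [empty_union, card_eq_one] at this
  obtain ⟨b, hb⟩ := this
  refine ⟨b, mem_thru.1 (hb ▸ mem_singleton_self b), fun c hc => ?_⟩
  rw [← mem_singleton, ← hb]
  exact mem_thru.2 hc

/-- The bijection on blocks induced by an isomorphism of set systems. -/
noncomputable def blockEquiv {B : Set (Finset α)} {B' : Set (Finset β)} (e : α ≃ β)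
    (h : (fun b => b.image e) '' B = B') : B ≃ B' :=
  (Equiv.Set.image (fun b : Finset α => b.image e) B (image_injective e.injective)).trans
    (Equiv.setCongr h)

theorem coe_blockEquiv {B : Set (Finset α)} {B' : Set (Finset β)} (e : α ≃ β)
    (h : (fun b => b.image e) '' B = B') (b : B) :
    (blockEquiv e h b : Finset β) = (b : Finset α).image e := rfl

theorem blockGraph_iso {B : Set (Finset α)} {B' : Set (Finset β)} (h : SetSystemIso B B') :
    Nonempty (blockGraph B ≃g blockGraph B') := by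
  obtain ⟨e, h⟩ := h
  refine ⟨⟨blockEquiv e h, fun {b c} => ?_⟩⟩
  simp only [blockGraph, SimpleGraph.fromRel_adj, coe_blockEquiv, disjoint_image e.injective, ne_eq,
    EmbeddingLike.apply_eq_iff_eq]

theorem pointBlockGraph_iso {B : Set (Finset α)} {B' : Set (Finset β)} (h : SetSystemIso B B') :
    Nonempty (pointBlockGraph B ≃g pointBlockGraph B') := by
  obtain ⟨e, h⟩ := h
  refine ⟨⟨Equiv.optionCongr (Equiv.sumCongr e (blockEquiv e h)), fun {b c} => ?_⟩⟩
  have key : ∀ b c, pointBlockRel B' (Equiv.optionCongr (Equiv.sumCongr e (blockEquiv e h)) b)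
      (Equiv.optionCongr (Equiv.sumCongr e (blockEquiv e h)) c) ↔ pointBlockRel B b c := by
    rintro (_ | a | b) (_ | a' | b') <;>
      simp [pointBlockRel, coe_blockEquiv, disjoint_image e.injective]
  simp only [pointBlockGraph, SimpleGraph.fromRel_adj, key, ne_eq, EmbeddingLike.apply_eq_iff_eq]

end design

section count
variable {V : Type*} [Fintype V] [DecidableEq V] (G : SimpleGraph V) [DecidableRel G.Adj]

/-- Number of neighbours of `v` in `S`. -/
def dg (S : Finset V) (v : V) : ℕ := (S.filter (G.Adj v)).card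

/-- Common neighbours. -/
def cnb (x y : V) : Finset V := univ.filter fun p => G.Adj x p ∧ G.Adj y p

variable {G}

theorem mem_cnb {x y p : V} : p ∈ cnb G x y ↔ G.Adj x p ∧ G.Adj y p := by simp [cnb]

theorem dg_eq_sum (S : Finset V) (v : V) : dg G S v = ∑ p ∈ S, if G.Adj v p then 1 else 0 :=
  card_filter _ _

theorem sum_dg_comm (S T : Finset V) : ∑ v ∈ T, dg G S v = ∑ p ∈ S, dg G T p := by
  simp only [dg_eq_sum]
  rw [sum_comm]
  simp only [G.adj_comm]

theorem dg_eq_zero {S : Finset V} {v : V} : dg G S v = 0 ↔ ∀ p ∈ S, ¬ G.Adj v p := by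
  simp [dg]

theorem dg_eq_card {S : Finset V} {v : V} (h : ∀ p ∈ S, G.Adj v p) : dg G S v = S.card := by
  rw [dg, filter_true_of_mem h]

theorem sum_dg_mul (S T : Finset V) :
    ∑ v, dg G S v * dg G T v = ∑ p ∈ S, ∑ q ∈ T, (cnb G p q).card := by
  simp only [dg_eq_sum, sum_mul_sum, cnb, card_filter]
  rw [sum_comm]
  refine sum_congr rfl fun p _ => ?_
  rw [sum_comm]
  refine sum_congr rfl fun q _ => sum_congr rfl fun v _ => ?_
  simp only [G.adj_comm p v, G.adj_comm q v]
  by_cases h1 : G.Adj v p <;> by_cases h2 : G.Adj v q <;> simp [h1, h2]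

variable {n k m : ℕ}

theorem srg_dg_univ (h : G.IsSRGWith n k 0 m) (v : V) : dg G univ v = k := by
  rw [← h.regular v, ← SimpleGraph.card_neighborFinset_eq_degree,
    SimpleGraph.neighborFinset_eq_filter]; rfl

theorem card_cnb_eq (x y : V) : (cnb G x y).card = Fintype.card (G.commonNeighbors x y) := by
  rw [← Nat.card_eq_fintype_card, Nat.card_coe_set_eq, ← Set.ncard_coe_finset]
  congr 1
  ext p
  simp [mem_cnb, SimpleGraph.mem_commonNeighbors]

theorem srg_no_triangle (h : G.IsSRGWith n k 0 m) {x y p : V} (h1 : G.Adj x y) (h2 : G.Adj x p)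
    (h3 : G.Adj y p) : False := by
  have := h.of_adj x y h1
  rw [← card_cnb_eq, card_eq_zero] at this
  exact notMem_empty p (this ▸ mem_cnb.2 ⟨h2, h3⟩)

theorem srg_cnb_self (h : G.IsSRGWith n k 0 m) (x : V) : (cnb G x x).card = k := by
  rw [← srg_dg_univ h x]; simp [cnb, dg]

theorem srg_cnb_adj (h : G.IsSRGWith n k 0 m) {x y : V} (h1 : G.Adj x y) :
    (cnb G x y).card = 0 := by
  rw [card_cnb_eq, h.of_adj x y h1]

theorem srg_cnb_nadj (h : G.IsSRGWith n k 0 m) {x y : V} (h0 : x ≠ y) (h1 : ¬ G.Adj x y) :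
    (cnb G x y).card = m := by
  rw [card_cnb_eq, h.of_not_adj h0 h1]

theorem srg_sum_dg (h : G.IsSRGWith n k 0 m) (S : Finset V) : ∑ v, dg G S v = S.card * k := by
  rw [sum_dg_comm, sum_congr rfl fun p _ => srg_dg_univ h p, sum_const, smul_eq_mul]

theorem srg_sum_dg_sq (h : G.IsSRGWith n k 0 m) {S : Finset V}
    (hS : ∀ p ∈ S, ∀ q ∈ S, ¬ G.Adj p q) :
    ∑ v, dg G S v * dg G S v = S.card * (k + (S.card - 1) * m) := by
  rw [sum_dg_mul, sum_congr rfl (g := fun _ => k + (S.card - 1) * m), sum_const, smul_eq_mul]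
  intro p hp
  rw [← add_sum_erase _ _ hp, srg_cnb_self h, sum_congr rfl (g := fun _ => m), sum_const,
    card_erase_of_mem hp, smul_eq_mul]
  intro q hq
  rw [mem_erase] at hq
  exact srg_cnb_nadj h hq.1.symm (hS p hp q hq.2)

theorem srg_sum_dg_mul (h : G.IsSRGWith n k 0 m) {S T : Finset V} (hd : Disjoint S T)
    (hS : ∀ p ∈ S, ∀ q ∈ T, ¬ G.Adj p q) :
    ∑ v, dg G S v * dg G T v = S.card * (T.card * m) := by
  rw [sum_dg_mul, sum_congr rfl (g := fun _ => T.card * m), sum_const, smul_eq_mul]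
  intro p hp
  rw [sum_congr rfl (g := fun _ => m), sum_const, smul_eq_mul]
  intro q hq
  exact srg_cnb_nadj h (by rintro rfl; exact disjoint_left.1 hd hp hq) (hS p hp q hq)

theorem srg_cnb_coclique (h : G.IsSRGWith n k 0 m) (x y : V) :
    ∀ p ∈ cnb G x y, ∀ q ∈ cnb G x y, ¬ G.Adj p q := fun _ hp _ hq hpq =>
  srg_no_triangle h (mem_cnb.1 hp).1 (mem_cnb.1 hq).1 hpq

theorem eq_zero_of_sum_le {f : V → ℤ} (hf : ∀ v, 0 ≤ f v) (S : Finset V)
    (h : ∑ v, f v ≤ ∑ v ∈ S, f v) {v : V} (hv : v ∉ S) : f v = 0 := by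
  rw [← sum_add_sum_compl S] at h
  have h1 : ∑ v ∈ Sᶜ, f v = 0 := le_antisymm (by linarith) (sum_nonneg fun v _ => hf v)
  exact (sum_eq_zero_iff_of_nonneg fun v _ => hf v).1 h1 v (mem_compl.2 hv)

theorem card_nbr_union (h : G.IsSRGWith n k 0 m) {x y : V} (h0 : x ≠ y) (h1 : ¬ G.Adj x y) :
    (univ.filter fun v => G.Adj x v ∨ G.Adj y v).card + m = 2 * k := by
  rw [filter_or, ← srg_cnb_nadj h h0 h1, cnb, filter_and, card_union_add_card_inter]
  have h2 := srg_dg_univ h x
  have h3 := srg_dg_univ h y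
  rw [dg] at h2 h3
  omega

end count

section hundred
variable {V : Type*} [Fintype V] [DecidableEq V] {G : SimpleGraph V} [DecidableRel G.Adj]

theorem srg100_two (h : G.IsSRGWith 100 22 0 6) {x y : V} (h0 : x ≠ y) (h1 : ¬ G.Adj x y) {w : V}
    (hx : x ≠ w) (hy : y ≠ w) (hx' : ¬ G.Adj x w) (hy' : ¬ G.Adj y w) :
    dg G (cnb G x y) w = 2 := by
  have c6 := srg_cnb_nadj h h0 h1
  have s1 := srg_sum_dg h (cnb G x y)
  have s2 := srg_sum_dg_sq h (srg_cnb_coclique h x y)
  have c38 := card_nbr_union h h0 h1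
  rw [c6] at s1 s2
  set U := univ.filter fun v => G.Adj x v ∨ G.Adj y v with hU
  have hxU : x ∉ insert y U := by simp [hU, h0, G.adj_comm, h1]
  have hyU : y ∉ U := by simp [hU, h1]
  have key := eq_zero_of_sum_le (f := fun v => ((dg G (cnb G x y) v : ℤ) - 2) ^ 2)
    (fun v => sq_nonneg _) (insert x (insert y U)) (v := w) ?_ (by simp [hU, hx.symm, hy.symm, hx', hy'])
  · have := pow_eq_zero_iff (two_ne_zero) |>.1 key
    omega
  rw [sum_insert hxU, sum_insert hyU, sum_congr rfl (s₁ := U) (g := fun _ => 4),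
    dg_eq_card fun p hp => (mem_cnb.1 hp).1, dg_eq_card fun p hp => (mem_cnb.1 hp).2, c6]
  · have e : ∀ v, ((dg G (cnb G x y) v : ℤ) - 2) ^ 2 =
        ((dg G (cnb G x y) v * dg G (cnb G x y) v : ℕ) : ℤ) - 4 * (dg G (cnb G x y) v : ℕ) + 4 := by
      intro v; push_cast; ring
    simp only [e, sum_add_distrib, sum_sub_distrib, ← mul_sum, ← Nat.cast_sum, s1, s2, sum_const,
      card_univ, h.card]
    have : U.card = 38 := by omega
    rw [this]; norm_num
  · intro v hv
    rw [dg_eq_zero.2]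
    · norm_num
    · intro p hp hvp
      rw [mem_cnb] at hp
      rcases (mem_filter.1 hv).2 with h3 | h3
      · exact srg_no_triangle h h3 hp.1 hvp
      · exact srg_no_triangle h h3 hp.2 hvp

theorem srg100_iso (h : G.IsSRGWith 100 22 0 6) (x : V) :
    ∃ B : Set (Finset {a // G.Adj x a}), Fintype.card {a // G.Adj x a} = 22 ∧
      IsSteinerSystem 3 6 B ∧ Nonempty (G ≃g pointBlockGraph B) := by
  have hα : Fintype.card {a // G.Adj x a} = 22 := by
    rw [Fintype.card_subtype]; exact srg_dg_univ h x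
  have hW : Fintype.card {w // x ≠ w ∧ ¬ G.Adj x w} = 77 := by
    rw [Fintype.card_subtype]
    have h1 := card_filter_add_card_filter_not (s := (univ : Finset V))
      (fun w => x ≠ w ∧ ¬ G.Adj x w)
    have h2 : (univ.filter fun w => ¬ (x ≠ w ∧ ¬ G.Adj x w)) = insert x (univ.filter (G.Adj x)) := by
      ext w; simp only [mem_filter, mem_univ, true_and, mem_insert]; tauto
    have h3 := srg_dg_univ h x
    rw [h2, card_insert_of_notMem (by simp), card_univ, h.card] at h1
    rw [dg] at h3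
    omega
  let f : {w // x ≠ w ∧ ¬ G.Adj x w} → Finset {a // G.Adj x a} :=
    fun w => univ.filter fun a => G.Adj w a
  have hf : ∀ w w', (f w ∩ f w').card = dg G (cnb G x w) w' := by
    intro w w'
    rw [← card_map (Function.Embedding.subtype _), dg]
    congr 1
    ext a
    simp [f, mem_cnb, and_assoc]
    tauto
  have hf2 : ∀ w w' : {w // x ≠ w ∧ ¬ G.Adj x w}, w ≠ w' → ¬ G.Adj w w' → (f w ∩ f w').card = 2 := by
    intro w w' h1 h2
    rw [hf]
    exact srg100_two h w.2.1 w.2.2 w'.2.1 (fun e => h1 (Subtype.ext e)) w'.2.2 h2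
  have hf0 : ∀ w w' : {w // x ≠ w ∧ ¬ G.Adj x w}, G.Adj w w' → (f w ∩ f w').card = 0 := by
    intro w w' h1
    rw [hf, dg_eq_zero]
    exact fun p hp h2 => srg_no_triangle h h1 (mem_cnb.1 hp).2 h2
  obtain ⟨hinj, hB⟩ := steiner_of_family hα hW f (fun w => by
    rw [← inter_self (f w), hf, dg_eq_card fun p hp => (mem_cnb.1 hp).2,
      srg_cnb_nadj h w.2.1 w.2.2]) (fun w w' hne => by
    by_cases h1 : G.Adj w w'
    · rw [hf0 w w' h1]; norm_num
    · rw [hf2 w w' hne h1])
  refine ⟨Set.range f, hα, hB, ⟨SimpleGraph.Iso.symm ?_⟩⟩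
  let g : Option ({a // G.Adj x a} ⊕ Set.range f) → V := fun u =>
    match u with
    | none => x
    | some (Sum.inl a) => a
    | some (Sum.inr b) => (Equiv.ofInjective f hinj).symm b
  have hg : Function.Bijective g := by
    rw [Fintype.bijective_iff_surjective_and_card]
    constructor
    · intro v
      by_cases h1 : x = v
      · exact ⟨none, h1⟩
      by_cases h2 : G.Adj x v
      · exact ⟨some (Sum.inl ⟨v, h2⟩), rfl⟩
      · exact ⟨some (Sum.inr (Equiv.ofInjective f hinj ⟨v, h1, h2⟩)), by simp [g]⟩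
    · rw [Fintype.card_option, Fintype.card_sum, hα, h.card,
        ← Fintype.card_congr (Equiv.ofInjective f hinj), hW]
  have hb : ∀ b : Set.range f, (b : Finset _) = f ((Equiv.ofInjective f hinj).symm b) :=
    fun b => (Equiv.apply_ofInjective_symm hinj b).symm
  refine ⟨Equiv.ofBijective g hg, ?_⟩
  rintro (_ | a | b) (_ | a' | b') <;>
    simp only [Equiv.ofBijective_apply, g, pb_nn, pb_np, pb_pn, pb_nb, pb_bn, pb_pp, pb_pb, pb_bp,
      pb_bb hB, iff_true, iff_false]
  · exact G.irrefl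
  · exact a'.2
  · exact ((Equiv.ofInjective f hinj).symm b').2.2
  · exact a.2.symm
  · exact fun e => srg_no_triangle h a.2 a'.2 e
  · rw [hb b']; simp [f, G.adj_comm]
  · exact fun e => ((Equiv.ofInjective f hinj).symm b).2.2 e.symm
  · rw [hb b]; simp [f]
  · rw [hb b, hb b', disjoint_iff_inter_eq_empty, ← card_eq_zero, G.adj_comm]
    generalize (Equiv.ofInjective f hinj).symm b = w
    generalize (Equiv.ofInjective f hinj).symm b' = w'
    refine ⟨hf0 w' w, fun e => ?_⟩
    by_contra h1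
    by_cases h2 : w' = w
    · rw [h2, inter_self, hB.1 _ ⟨w, rfl⟩] at e
      omega
    · rw [hf2 w' w h2 h1] at e
      omega

end hundred

end Cfsg.Lib.Steiner
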