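import Mathlib
import Cfsg.Agent.Lib.Steiner.SrgBasic

/-! The strongly regular graph with parameters (77, 16, 0, 4) is the block graph of an
S(3, 6, 22). -/

set_option autoImplicit false
set_option linter.unusedSectionVars false

namespace Cfsg.Lib.Steiner

open Finset

variable {V : Type*} [Fintype V] [DecidableEq V] {G : SimpleGraph V} [DecidableRel G.Adj]

theorem dg_cnb_eq (x y z : V) :
    dg G (cnb G x y) z = (univ.filter fun p => G.Adj x p ∧ G.Adj y p ∧ G.Adj z p).card := by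
  rw [dg, cnb, filter_filter]
  simp only [and_assoc]

theorem dg_cnb_comm12 (x y z : V) : dg G (cnb G x y) z = dg G (cnb G y x) z := by
  simp only [dg_cnb_eq, and_left_comm]

theorem dg_cnb_comm23 (x y z : V) : dg G (cnb G x y) z = dg G (cnb G x z) y := by
  simp only [dg_cnb_eq, and_comm (a := G.Adj y _)]

theorem dg_cnb_zero {n k m : ℕ} (h : G.IsSRGWith n k 0 m) {x y v : V}
    (hv : G.Adj x v ∨ G.Adj y v) : dg G (cnb G x y) v = 0 := by
  rw [dg_eq_zero]
  intro p hp hvp
  rw [mem_cnb] at hp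
  rcases hv with h3 | h3
  · exact srg_no_triangle h h3 hp.1 hvp
  · exact srg_no_triangle h h3 hp.2 hvp

theorem int_quad_nonneg (d : ℤ) : 0 ≤ (d - 1) * (d - 2) := by
  rcases le_or_gt d 1 with h | h <;> nlinarith

theorem srg77_no_K33 (h : G.IsSRGWith 77 16 0 4) {x y z : V} (h1 : x ≠ y) (h2 : x ≠ z)
    (h3 : y ≠ z) : dg G (cnb G x y) z ≤ 2 := by
  by_contra hc
  obtain ⟨P, hP, hP3⟩ := exists_subset_card_eq (s := (cnb G x y).filter (G.Adj z)) (n := 3)
    (not_le.1 hc)
  set X : Finset V := {x, y, z} with hX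
  have hX3 : X.card = 3 := card_eq_three.2 ⟨x, y, z, h1, h2, h3, rfl⟩
  have hXP : ∀ a ∈ X, ∀ p ∈ P, G.Adj a p := by
    intro a ha p hp
    have := hP hp
    rw [mem_filter, mem_cnb] at this
    simp only [hX, mem_insert, mem_singleton] at ha
    rcases ha with rfl | rfl | rfl
    exacts [this.1.1, this.1.2, this.2]
  obtain ⟨p0, hp0⟩ : P.Nonempty := card_pos.1 (by omega)
  have hXc : ∀ a ∈ X, ∀ b ∈ X, ¬ G.Adj a b := fun a ha b hb hab =>
    srg_no_triangle h hab (hXP a ha p0 hp0) (hXP b hb p0 hp0)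
  have hPc : ∀ a ∈ P, ∀ b ∈ P, ¬ G.Adj a b := fun a ha b hb hab =>
    srg_no_triangle h (hXP x (by simp [hX]) a ha) (hXP x (by simp [hX]) b hb) hab
  have hd : Disjoint X P := disjoint_left.2 fun a ha hb => G.irrefl (hXP a ha a hb)
  have s1 := srg_sum_dg h X
  have s2 := srg_sum_dg h P
  have s3 := srg_sum_dg_sq h hXc
  have s4 := srg_sum_dg_sq h hPc
  have s5 : ∑ v, dg G X v * dg G P v = 0 := by
    rw [sum_dg_mul]
    exact sum_eq_zero fun a ha => sum_eq_zero fun p hp => srg_cnb_adj h (hXP a ha p hp)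
  rw [hX3] at s1 s3
  rw [hP3] at s2 s4
  have key := sum_le_sum_of_subset_of_nonneg (subset_univ (X ∪ P))
    (f := fun v => ((dg G X v + dg G P v : ℤ) - 1) * ((dg G X v + dg G P v : ℤ) - 2))
    fun v _ _ => int_quad_nonneg _
  have e : ∀ v, ((dg G X v + dg G P v : ℤ) - 1) * ((dg G X v + dg G P v : ℤ) - 2) =
      ((dg G X v * dg G X v : ℕ) : ℤ) + ((dg G P v * dg G P v : ℕ) : ℤ)
        + 2 * ((dg G X v * dg G P v : ℕ) : ℤ) - 3 * (dg G X v : ℕ) - 3 * (dg G P v : ℕ) + 2 := by
    intro v; push_cast; ring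
  rw [sum_congr rfl (g := fun _ => 2), sum_const, card_union_of_disjoint hd, hX3, hP3] at key
  · simp only [e, sum_add_distrib, sum_sub_distrib, ← mul_sum, ← Nat.cast_sum, s1, s2, s3, s4, s5,
      sum_const, card_univ, h.card] at key
    norm_num at key
  · intro v hv
    rcases mem_union.1 hv with hv | hv
    · rw [dg_eq_zero.2 (hXc v hv), dg_eq_card (hXP v hv), hP3]; norm_num
    · rw [dg_eq_zero.2 (hPc v hv), dg_eq_card fun a ha => (hXP a ha v hv).symm, hX3]; norm_num

variable (G) in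
/-- Three pairwise distinct non-adjacent vertices without common neighbour. -/
def Tri (x y z : V) : Prop :=
  x ≠ y ∧ x ≠ z ∧ y ≠ z ∧ ¬ G.Adj x y ∧ ¬ G.Adj x z ∧ ¬ G.Adj y z ∧ dg G (cnb G x y) z = 0

/-- Decidability of `Tri`. -/
instance decidableTri (x y z : V) : Decidable (Tri G x y z) := by
  unfold Tri; infer_instance

theorem Tri.symm12 {x y z : V} (h : Tri G x y z) : Tri G y x z := by
  obtain ⟨h1, h2, h3, h4, h5, h6, h7⟩ := h
  exact ⟨h1.symm, h3, h2, fun e => h4 e.symm, h6, h5, (dg_cnb_comm12 y x z).trans h7⟩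

theorem Tri.symm23 {x y z : V} (h : Tri G x y z) : Tri G x z y := by
  obtain ⟨h1, h2, h3, h4, h5, h6, h7⟩ := h
  exact ⟨h2, h1, h3.symm, h5, h4, fun e => h6 e.symm, (dg_cnb_comm23 x z y).trans h7⟩

theorem srg77_card_tri (h : G.IsSRGWith 77 16 0 4) {x y : V} (h0 : x ≠ y) (h1 : ¬ G.Adj x y) :
    (univ.filter (Tri G x y)).card = 3 := by
  have c4 := srg_cnb_nadj h h0 h1
  have s1 := srg_sum_dg h (cnb G x y)
  have s2 := srg_sum_dg_sq h (srg_cnb_coclique h x y)
  have c28 := card_nbr_union h h0 h1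
  rw [c4] at s1 s2
  have hx : dg G (cnb G x y) x = 4 := by rw [dg_eq_card fun p hp => (mem_cnb.1 hp).1, c4]
  have hy : dg G (cnb G x y) y = 4 := by rw [dg_eq_card fun p hp => (mem_cnb.1 hp).2, c4]
  have e1 : ∀ v, ((dg G (cnb G x y) v * dg G (cnb G x y) v : ℕ) : ℤ) - 3 * (dg G (cnb G x y) v : ℕ)
      + 2 = 2 * (if G.Adj x v ∨ G.Adj y v then 1 else 0) + 2 * (if Tri G x y v then 1 else 0)
        + 6 * (if v = x then 1 else 0) + 6 * (if v = y then 1 else 0) := by
    intro v
    by_cases hvx : v = x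
    · subst hvx
      simp [hx, h0, Tri, G.adj_comm y, h1]
    by_cases hvy : v = y
    · subst hvy
      simp [hy, hvx, Tri, h1]
    by_cases hv : G.Adj x v ∨ G.Adj y v
    · have : ¬ Tri G x y v := fun t => hv.elim t.2.2.2.2.1 t.2.2.2.2.2.1
      simp [dg_cnb_zero h hv, hv, this, hvx, hvy]
    have h2 := srg77_no_K33 h h0 (Ne.symm hvx) (Ne.symm hvy)
    have h3 : Tri G x y v ↔ dg G (cnb G x y) v = 0 :=
      ⟨fun t => t.2.2.2.2.2.2, fun t => ⟨h0, Ne.symm hvx, Ne.symm hvy, h1, fun e => hv (Or.inl e),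
        fun e => hv (Or.inr e), t⟩⟩
    simp only [hv, hvx, hvy, h3, if_false]
    generalize dg G (cnb G x y) v = d at h2
    interval_cases d <;> simp
  have := sum_congr (rfl : (univ : Finset V) = univ) fun v _ => e1 v
  simp only [sum_add_distrib, sum_sub_distrib, ← mul_sum, ← Nat.cast_sum, s1, s2, sum_const,
    card_univ, h.card, sum_boole, filter_eq', mem_univ, if_true, card_singleton] at this
  have c28' : (univ.filter fun v => G.Adj x v ∨ G.Adj y v).card = 28 := by omega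
  rw [c28'] at this
  norm_num at this
  have h3 : ((univ.filter fun z => Tri G x y z).card : ℤ) = 3 := by linarith
  exact_mod_cast h3

theorem srg77_card_W (h : G.IsSRGWith 77 16 0 4) {x y z : V} (t : Tri G x y z) :
    (univ.filter fun w => G.Adj z w ∧ ¬ G.Adj x w ∧ ¬ G.Adj y w).card = 8 := by
  obtain ⟨h1, h2, h3, h4, h5, h6, h7⟩ := t
  have a1 := srg_dg_univ h z
  have a2 := srg_cnb_nadj h h2 h5
  have a3 := srg_cnb_nadj h h3 h6
  have hd : Disjoint (cnb G x z) (cnb G y z) := by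
    rw [disjoint_left]
    intro p hp hq
    exact dg_eq_zero.1 h7 p (mem_cnb.2 ⟨(mem_cnb.1 hp).1, (mem_cnb.1 hq).1⟩) (mem_cnb.1 hp).2
  have a4 := card_sdiff_add_card_eq_card (s := cnb G x z ∪ cnb G y z) (t := univ.filter (G.Adj z))
    (by intro p; simp only [mem_union, mem_cnb, mem_filter, mem_univ, true_and]; tauto)
  rw [card_union_of_disjoint hd, a2, a3] at a4
  have : (univ.filter fun w => G.Adj z w ∧ ¬ G.Adj x w ∧ ¬ G.Adj y w)
      = univ.filter (G.Adj z) \ (cnb G x z ∪ cnb G y z) := by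
    ext p; simp only [mem_union, mem_cnb, mem_filter, mem_univ, true_and, mem_sdiff]; tauto
  rw [this]
  rw [dg] at a1
  omega

theorem srg77_two (h : G.IsSRGWith 77 16 0 4) {x y z w : V} (t : Tri G x y z) (hz : G.Adj z w)
    (hx : ¬ G.Adj x w) (hy : ¬ G.Adj y w) : dg G (cnb G x y) w = 2 := by
  have c8 := srg77_card_W h t
  obtain ⟨h1, h2, h3, h4, h5, h6, h7⟩ := t
  set W := univ.filter fun w => G.Adj z w ∧ ¬ G.Adj x w ∧ ¬ G.Adj y w with hW
  have a1 : ∑ v ∈ univ.filter (G.Adj z), dg G (cnb G x y) v = 16 := by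
    rw [sum_dg_comm, sum_congr rfl (g := fun _ => 4), sum_const, srg_cnb_nadj h h1 h4]
    · rfl
    · intro p hp
      rw [← srg_cnb_nadj h (x := z) (y := p) (by rintro rfl; exact h5 (mem_cnb.1 hp).1)
        (dg_eq_zero.1 h7 p hp), dg, filter_filter, cnb]
  have a2 : ∑ v ∈ W, dg G (cnb G x y) v = 16 := by
    rw [← a1]
    apply sum_subset
    · intro v hv
      simp only [hW, mem_filter, mem_univ, true_and] at hv ⊢
      exact hv.1
    · intro v hv hv'
      simp only [hW, mem_filter, mem_univ, true_and] at hv hv'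
      exact dg_cnb_zero h (by tauto)
  have a3 : ∀ v ∈ W, dg G (cnb G x y) v ≤ 2 := by
    intro v hv
    simp only [hW, mem_filter, mem_univ, true_and] at hv
    exact srg77_no_K33 h h1 (by rintro rfl; exact h5 hv.1.symm) (by rintro rfl; exact h6 hv.1.symm)
  exact (sum_eq_sum_iff_of_le a3).1 (by rw [a2, sum_const, c8]; rfl) w (by simp [hW, hz, hx, hy])

theorem srg77_eq (h : G.IsSRGWith 77 16 0 4) {x y z w : V} (t : Tri G x y z) (hy : y ≠ w)
    (hz : z ≠ w) (hy' : ¬ G.Adj y w) (hz' : ¬ G.Adj z w) :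
    dg G (cnb G x y) w = dg G (cnb G x z) w := by
  have c8 := srg77_card_W h t
  have c8' := srg77_card_W h t.symm23
  have t' := t
  obtain ⟨h1, h2, h3, h4, h5, h6, h7⟩ := t
  set W := univ.filter fun w => G.Adj z w ∧ ¬ G.Adj x w ∧ ¬ G.Adj y w with hW
  set W' := univ.filter fun w => G.Adj y w ∧ ¬ G.Adj x w ∧ ¬ G.Adj z w with hW'
  have c4 := srg_cnb_nadj h h1 h4
  have c4' := srg_cnb_nadj h h2 h5
  have s1 := srg_sum_dg_sq h (srg_cnb_coclique h x y)
  have s2 := srg_sum_dg_sq h (srg_cnb_coclique h x z)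
  have s3 := srg_sum_dg_mul h (S := cnb G x y) (T := cnb G x z)
    (disjoint_left.2 fun p hp hq => dg_eq_zero.1 h7 p hp (mem_cnb.1 hq).2)
    fun p hp q hq hpq => srg_no_triangle h (mem_cnb.1 hp).1 (mem_cnb.1 hq).1 hpq
  rw [c4] at s1 s3
  rw [c4'] at s2 s3
  have hd : Disjoint W W' := by
    rw [disjoint_left]
    intro v; simp only [hW, hW', mem_filter, mem_univ, true_and]; tauto
  have hzW : z ∉ W ∪ W' := by simp [hW, hW', h6]
  have hyW : y ∉ insert z (W ∪ W') := by simp [hW, hW', h3, G.adj_comm z, h6]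
  have key := eq_zero_of_sum_le (f := fun v => ((dg G (cnb G x y) v : ℤ) - dg G (cnb G x z) v) ^ 2)
    (fun v => sq_nonneg _) (insert y (insert z (W ∪ W'))) (v := w) ?_
    (by simp [hW, hW', hy.symm, hz.symm, hy', hz'])
  · have := pow_eq_zero_iff (two_ne_zero) |>.1 key
    omega
  rw [sum_insert hyW, sum_insert hzW, sum_congr rfl (s₁ := W ∪ W') (g := fun _ => 4),
    dg_eq_card (v := y) fun p hp => (mem_cnb.1 hp).2, c4, h7, ← dg_cnb_comm23 x y z, h7,
    dg_eq_card (v := z) fun p hp => (mem_cnb.1 hp).2, c4', sum_const, card_union_of_disjoint hd,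
    c8, c8']
  · have e : ∀ v, ((dg G (cnb G x y) v : ℤ) - dg G (cnb G x z) v) ^ 2 =
        ((dg G (cnb G x y) v * dg G (cnb G x y) v : ℕ) : ℤ)
        + ((dg G (cnb G x z) v * dg G (cnb G x z) v : ℕ) : ℤ)
        - 2 * ((dg G (cnb G x y) v * dg G (cnb G x z) v : ℕ) : ℤ) := by
      intro v; push_cast; ring
    simp only [e, sum_add_distrib, sum_sub_distrib, ← mul_sum, ← Nat.cast_sum, s1, s2, s3]
    norm_num
  · intro v hv
    simp only [hW, hW', mem_union, mem_filter, mem_univ, true_and] at hv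
    rcases hv with hv | hv
    · rw [srg77_two h t' hv.1 hv.2.1 hv.2.2, dg_cnb_zero h (Or.inr hv.1)]; norm_num
    · rw [srg77_two h t'.symm23 hv.1 hv.2.1 hv.2.2, dg_cnb_zero h (Or.inr hv.1)]; norm_num

theorem srg77_tri_trans (h : G.IsSRGWith 77 16 0 4) {x y z w : V} (t : Tri G x y z)
    (t' : Tri G x y w) (hzw : z ≠ w) : Tri G x z w := by
  obtain ⟨h1, h2, h3, h4, h5, h6, h7⟩ := t'
  have h8 : ¬ G.Adj z w := fun e => by
    have := srg77_two h t e h5 h6
    omega
  exact ⟨t.2.1, h2, hzw, t.2.2.2.2.1, h5, h8, by rw [← srg77_eq h t h3 hzw h6 h8, h7]⟩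

variable (G) in
/-- Lines: five vertices, any three of which form a `Tri`. -/
def IsLine (L : Finset V) : Prop :=
  L.card = 5 ∧ ∀ a ∈ L, ∀ b ∈ L, ∀ c ∈ L, a ≠ b → a ≠ c → b ≠ c → Tri G a b c

variable (G) in
/-- The line through two non-adjacent vertices. -/
def lineOf (x y : V) : Finset V := insert x (insert y (univ.filter (Tri G x y)))

theorem mem_lineOf {x y z : V} : z ∈ lineOf G x y ↔ z = x ∨ z = y ∨ Tri G x y z := by
  simp [lineOf]

theorem card_lineOf (h : G.IsSRGWith 77 16 0 4) {x y : V} (h0 : x ≠ y) (h1 : ¬ G.Adj x y) :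
    (lineOf G x y).card = 5 := by
  rw [lineOf, card_insert_of_notMem (by simp [h0, Tri]), card_insert_of_notMem (by simp [Tri]),
    srg77_card_tri h h0 h1]

theorem isLine_lineOf (h : G.IsSRGWith 77 16 0 4) {x y : V} (h0 : x ≠ y) (h1 : ¬ G.Adj x y) :
    IsLine G (lineOf G x y) := by
  refine ⟨card_lineOf h h0 h1, ?_⟩
  have k1 : ∀ b ∈ lineOf G x y, ∀ c ∈ lineOf G x y, x ≠ b → x ≠ c → b ≠ c → Tri G x b c := by
    intro b hb c hc hxb hxc hbc
    rw [mem_lineOf] at hb hc
    rcases hb with rfl | rfl | hb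
    · exact absurd rfl hxb
    · rcases hc with rfl | rfl | hc
      · exact absurd rfl hxc
      · exact absurd rfl hbc
      · exact hc
    · rcases hc with rfl | rfl | hc
      · exact absurd rfl hxc
      · exact hb.symm23
      · exact srg77_tri_trans h hb hc hbc
  intro a ha b hb c hc hab hac hbc
  by_cases hxa : x = a
  · exact hxa ▸ k1 b hb c hc (hxa ▸ hab) (hxa ▸ hac) hbc
  by_cases hxb : x = b
  · exact (hxb ▸ k1 a ha c hc hxa (hxb ▸ hbc) hac).symm12
  by_cases hxc : x = c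
  · exact (hxc ▸ k1 a ha b hb hxa hxb hab).symm12.symm23
  exact srg77_tri_trans h (k1 a ha b hb hxa hxb hab).symm12 (k1 a ha c hc hxa hxc hac).symm12 hbc

theorem IsLine.not_adj {L : Finset V} (hL : IsLine G L) {a b : V} (ha : a ∈ L) (hb : b ∈ L) :
    ¬ G.Adj a b := by
  intro hab
  obtain ⟨c, hc, hc'⟩ := exists_mem_notMem_of_card_lt_card (s := {a, b}) (t := L)
    (by rw [hL.1, card_pair hab.ne]; norm_num)
  simp only [mem_insert, mem_singleton, not_or] at hc'
  exact (hL.2 a ha b hb c hc hab.ne (Ne.symm hc'.1) (Ne.symm hc'.2)).2.2.2.1 hab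

theorem IsLine.eq_lineOf (h : G.IsSRGWith 77 16 0 4) {L : Finset V} (hL : IsLine G L) {a b : V}
    (ha : a ∈ L) (hb : b ∈ L) (hab : a ≠ b) : L = lineOf G a b := by
  apply eq_of_subset_of_card_le
  · intro c hc
    rw [mem_lineOf]
    by_cases h1 : c = a
    · exact Or.inl h1
    by_cases h2 : c = b
    · exact Or.inr (Or.inl h2)
    exact Or.inr (Or.inr (hL.2 a ha b hb c hc hab (Ne.symm h1) (Ne.symm h2)))
  · rw [card_lineOf h hab (hL.not_adj ha hb), hL.1]

theorem IsLine.dg_eq (h : G.IsSRGWith 77 16 0 4) {L : Finset V} (hL : IsLine G L) (v : V) :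
    dg G L v = 0 ∨ dg G L v = 2 := by
  have hle : ∀ v, dg G L v ≤ 2 := by
    intro v
    by_contra hc
    obtain ⟨P, hP, hP3⟩ := exists_subset_card_eq (s := L.filter (G.Adj v)) (n := 3) (not_le.1 hc)
    obtain ⟨a, b, c, hab, hac, hbc, rfl⟩ := card_eq_three.1 hP3
    have ha := mem_filter.1 (hP (x := a) (by simp))
    have hb := mem_filter.1 (hP (x := b) (by simp))
    have hc := mem_filter.1 (hP (x := c) (by simp))
    exact dg_eq_zero.1 (hL.2 a ha.1 b hb.1 c hc.1 hab hac hbc).2.2.2.2.2.2 v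
      (mem_cnb.2 ⟨ha.2.symm, hb.2.symm⟩) hc.2.symm
  have s1 := srg_sum_dg h L
  have s2 := srg_sum_dg_sq h (S := L) fun a ha b hb => hL.not_adj ha hb
  rw [hL.1] at s1 s2
  have := (sum_eq_sum_iff_of_le (s := univ) (f := fun v => dg G L v * dg G L v)
    (g := fun v => 2 * dg G L v) fun v _ => Nat.mul_le_mul_right _ (hle v)).1
    (by rw [← mul_sum, s1, s2]; rfl) v (mem_univ v)
  rcases Nat.eq_zero_or_pos (dg G L v) with h0 | h0
  · exact Or.inl h0
  · exact Or.inr (Nat.eq_of_mul_eq_mul_right h0 this)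

theorem IsLine.one (h : G.IsSRGWith 77 16 0 4) {L : Finset V} (hL : IsLine G L) {y : V}
    (hy : y ∉ L) (hy' : ∀ l ∈ L, ¬ G.Adj l y) {a b : V} (ha : a ∈ L) (hb : b ∈ L) (hab : a ≠ b) :
    dg G (cnb G a b) y = 1 := by
  have hne : ∀ l ∈ L, l ≠ y := by rintro l hl rfl; exact hy hl
  have s1 : ∑ l ∈ L.erase a, dg G (cnb G a y) l = 4 := by
    rw [sum_dg_comm, sum_congr rfl (g := fun _ => 1), sum_const,
      srg_cnb_nadj h (hne a ha) (hy' a ha)]
    · rfl
    · intro p hp
      have hap : a ∈ L.filter (G.Adj p) := mem_filter.2 ⟨ha, (mem_cnb.1 hp).1.symm⟩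
      have h2 := (hL.dg_eq h p).resolve_left (card_pos.2 ⟨a, hap⟩).ne'
      rw [dg, filter_erase, card_erase_of_mem hap]
      rw [dg] at h2
      omega
  rw [sum_congr rfl (g := fun _ => dg G (cnb G a b) y), sum_const, card_erase_of_mem ha, hL.1,
    smul_eq_mul] at s1
  · omega
  · intro l hl
    rw [mem_erase] at hl
    rw [dg_cnb_comm23]
    by_cases hlb : l = b
    · rw [hlb]
    exact srg77_eq h (hL.2 a ha l hl.2 b hb hl.1.symm hab hlb) (hne l hl.2) (hne b hb)
      (hy' l hl.2) (hy' b hb)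

theorem IsLine.orth_aux (h : G.IsSRGWith 77 16 0 4) {M : Finset V} (hM : IsLine G M) {y m m' : V}
    (hy : y ∈ M) (hm : m ∈ M) (hym : y ≠ m) (h1 : ¬ G.Adj y m') (h2 : ¬ G.Adj m m')
    (ht : dg G (cnb G y m) m' = 1) : ∀ l ∈ M, ¬ G.Adj l m' := by
  intro l hl hlm
  have := srg77_two h (hM.2 y hy m hm l hl hym (by rintro rfl; exact h1 hlm)
    (by rintro rfl; exact h2 hlm)) hlm h1 h2
  omega

theorem IsLine.orth (h : G.IsSRGWith 77 16 0 4) {M M' : Finset V} (hM : IsLine G M)
    (hM' : IsLine G M') {y m m' : V} (hy : y ∈ M) (hy' : y ∈ M') (hm : m ∈ M) (hm' : m' ∈ M')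
    (hym : y ≠ m) (hym' : y ≠ m') (hmm : m ≠ m') (h2 : ¬ G.Adj m m')
    (ht : dg G (cnb G y m) m' = 1) : ∀ l ∈ M, ∀ l' ∈ M', ¬ G.Adj l l' := by
  have h3 := hM.orth_aux h hy hm hym (hM'.not_adj hy' hm') h2 ht
  have h4 : m' ∉ M := fun e => by
    have := (hM.2 y hy m hm m' e hym hym' hmm).2.2.2.2.2.2
    omega
  intro l hl l' hl'
  by_cases hyl : y = l
  · exact hyl ▸ hM'.not_adj hy' hl'
  have h5 := hM.one h h4 h3 hy hl hyl
  rw [dg_cnb_comm23] at h5
  exact fun e => hM'.orth_aux h hy' hm' hym' (hM.not_adj hy hl) (fun e => h3 l hl e.symm) h5 l' hl'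
    e.symm

variable (G) in
/-- Cocliques of size 21. -/
def IsPlane (C : Finset V) : Prop := C.card = 21 ∧ ∀ a ∈ C, ∀ b ∈ C, ¬ G.Adj a b

/-- Decidability of `IsPlane`. -/
instance decidableIsPlane (C : Finset V) : Decidable (IsPlane G C) := by
  unfold IsPlane; infer_instance

theorem exists_plane (h : G.IsSRGWith 77 16 0 4) {L : Finset V} (hL : IsLine G L) {y : V}
    (hy : y ∉ L) (hy' : ∀ l ∈ L, ¬ G.Adj l y) :
    IsPlane G (insert y (L.biUnion fun l => (lineOf G y l).erase y)) := by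
  have hne : ∀ l ∈ L, y ≠ l := by rintro l hl rfl; exact hy hl
  have hline : ∀ l ∈ L, IsLine G (lineOf G y l) := fun l hl =>
    isLine_lineOf h (hne l hl) fun e => hy' l hl e.symm
  have hyl : ∀ l, y ∈ lineOf G y l := fun l => mem_lineOf.2 (Or.inl rfl)
  have hll : ∀ l, l ∈ lineOf G y l := fun l => mem_lineOf.2 (Or.inr (Or.inl rfl))
  constructor
  · rw [card_insert_of_notMem (by simp), card_biUnion, sum_congr rfl (g := fun _ => 4), sum_const,
      hL.1]
    · rfl
    · intro l hl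
      rw [card_erase_of_mem (hyl l), (hline l hl).1]
    · intro l hl l' hl' hll'
      rw [Function.onFun, disjoint_left]
      intro u hu hu'
      rw [mem_erase] at hu hu'
      have e1 := (hline l hl).eq_lineOf h (hyl l) hu.2 hu.1.symm
      have e2 := (hline l' hl').eq_lineOf h (hyl l') hu'.2 hu.1.symm
      have e3 := (hline l hl).eq_lineOf h (hll l) (by rw [e1, ← e2]; exact hll l') hll'
      apply hy
      rw [hL.eq_lineOf h hl hl' hll', ← e3]
      exact hyl l
  · have key : ∀ l ∈ L, ∀ l' ∈ L, ∀ a ∈ lineOf G y l, ∀ b ∈ lineOf G y l', ¬ G.Adj a b := by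
      intro l hl l' hl'
      by_cases hll' : l = l'
      · subst hll'
        exact fun a ha b hb => (hline l hl).not_adj ha hb
      refine (hline l hl).orth h (hline l' hl') (hyl l) (hyl l') (hll l) (hll l') (hne l hl)
        (hne l' hl') hll' (hL.not_adj hl hl') ?_
      rw [dg_cnb_comm12, dg_cnb_comm23]
      exact hL.one h hy hy' hl hl' hll'
    obtain ⟨l0, hl0⟩ : L.Nonempty := card_pos.1 (by rw [hL.1]; norm_num)
    have mem : ∀ a ∈ insert y (L.biUnion fun l => (lineOf G y l).erase y),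
        ∃ l ∈ L, a ∈ lineOf G y l := by
      intro a ha
      rcases mem_insert.1 ha with rfl | ha
      · exact ⟨l0, hl0, hyl l0⟩
      · obtain ⟨l, hl, ha⟩ := mem_biUnion.1 ha
        exact ⟨l, hl, mem_of_mem_erase ha⟩
    intro a ha b hb
    obtain ⟨l, hl, ha⟩ := mem a ha
    obtain ⟨l', hl', hb⟩ := mem b hb
    exact key l hl l' hl' a ha b hb

theorem IsPlane.dg_eq (h : G.IsSRGWith 77 16 0 4) {C : Finset V} (hC : IsPlane G C) {v : V}
    (hv : v ∉ C) : dg G C v = 6 := by
  have s1 := srg_sum_dg h C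
  have s2 := srg_sum_dg_sq h hC.2
  rw [hC.1] at s1 s2
  have key := eq_zero_of_sum_le (f := fun v => ((dg G C v : ℤ) - 6) ^ 2)
    (fun v => sq_nonneg _) C (v := v) ?_ hv
  · have := pow_eq_zero_iff (two_ne_zero) |>.1 key
    omega
  rw [sum_congr rfl (s₁ := C) (g := fun _ => 36), sum_const, hC.1]
  · have e : ∀ v, ((dg G C v : ℤ) - 6) ^ 2 =
        ((dg G C v * dg G C v : ℕ) : ℤ) - 12 * (dg G C v : ℕ) + 36 := by
      intro v; push_cast; ring
    simp only [e, sum_add_distrib, sum_sub_distrib, ← mul_sum, ← Nat.cast_sum, s1, s2, sum_const,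
      card_univ, h.card]
    norm_num
  · intro v hv
    rw [dg_eq_zero.2 (hC.2 v hv)]; norm_num

theorem IsPlane.line_subset (h : G.IsSRGWith 77 16 0 4) {C : Finset V} (hC : IsPlane G C) {a b : V}
    (ha : a ∈ C) (hb : b ∈ C) (hab : a ≠ b) : lineOf G a b ⊆ C := by
  have hn := hC.2 a ha b hb
  have c4 := srg_cnb_nadj h hab hn
  have hb' : b ∈ C.erase a := mem_erase.2 ⟨hab.symm, hb⟩
  have s1 : ∑ c ∈ C, dg G (cnb G a b) c = 24 := by
    rw [sum_dg_comm, sum_congr rfl (g := fun _ => 6), sum_const, c4]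
    · rfl
    · exact fun p hp => hC.dg_eq h fun e => hC.2 a ha p e (mem_cnb.1 hp).1
  rw [← add_sum_erase _ _ ha, ← add_sum_erase _ _ hb',
    dg_eq_card (v := a) fun p hp => (mem_cnb.1 hp).1,
    dg_eq_card (v := b) fun p hp => (mem_cnb.1 hp).2, c4] at s1
  set D := (C.erase a).erase b with hD
  have hD19 : D.card = 19 := by rw [hD, card_erase_of_mem hb', card_erase_of_mem ha, hC.1]
  have s2 := card_filter_add_card_filter_not (s := D) (fun c => dg G (cnb G a b) c = 0)
  have s3 : (D.filter fun c => ¬ dg G (cnb G a b) c = 0).card ≤ ∑ c ∈ D, dg G (cnb G a b) c := by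
    rw [card_filter]
    refine sum_le_sum fun c _ => ?_
    split_ifs <;> omega
  have hsub : (D.filter fun c => dg G (cnb G a b) c = 0) ⊆ univ.filter (Tri G a b) := by
    intro c hc
    simp only [hD, mem_filter, mem_erase, mem_univ, true_and] at hc ⊢
    exact ⟨hab, hc.1.2.1.symm, hc.1.1.symm, hn, hC.2 a ha c hc.1.2.2, hC.2 b hb c hc.1.2.2, hc.2⟩
  have heq := eq_of_subset_of_card_le hsub (by rw [srg77_card_tri h hab hn]; omega)
  intro c hc
  rcases mem_lineOf.1 hc with rfl | rfl | hc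
  · exact ha
  · exact hb
  · have : c ∈ D.filter fun c => dg G (cnb G a b) c = 0 := heq ▸ mem_filter.2 ⟨mem_univ _, hc⟩
    exact mem_of_mem_erase (mem_of_mem_erase (mem_filter.1 this).1)

theorem card_planes_pair (h : G.IsSRGWith 77 16 0 4) {x z : V} (h0 : x ≠ z) (h1 : ¬ G.Adj x z) :
    (univ.filter fun C => IsPlane G C ∧ x ∈ C ∧ z ∈ C).card = 2 := by
  have hL := isLine_lineOf h h0 h1
  set L := lineOf G x z with hLdef
  have hx : x ∈ L := mem_lineOf.2 (Or.inl rfl)
  have hz : z ∈ L := mem_lineOf.2 (Or.inr (Or.inl rfl))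
  set R := univ.filter fun y => y ∉ L ∧ ∀ l ∈ L, ¬ G.Adj l y with hR
  have hR32 : R.card = 32 := by
    have s1 := srg_sum_dg h L
    have e : ∀ v, dg G L v + 2 * (if v ∈ L then 1 else 0) + 2 * (if v ∈ R then 1 else 0) = 2 := by
      intro v
      have h3 : (∀ l ∈ L, ¬ G.Adj l v) ↔ dg G L v = 0 := by
        simp only [dg_eq_zero, G.adj_comm v]
      simp only [hR, mem_filter, mem_univ, true_and, h3]
      by_cases hv : v ∈ L
      · simp [hv, dg_eq_zero.2 fun p hp => hL.not_adj hv hp]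
      · rcases hL.dg_eq h v with h4 | h4 <;> simp [hv, h4]
    have := sum_congr (rfl : (univ : Finset V) = univ) fun v _ => e v
    simp only [sum_add_distrib, ← mul_sum, s1, sum_const, card_univ, h.card, sum_boole,
      filter_mem_eq_inter, univ_inter, hL.1] at this
    norm_num at this
    omega
  have := card_mul_eq_card_mul (s := univ.filter fun C => IsPlane G C ∧ x ∈ C ∧ z ∈ C) (t := R)
    (fun C y => y ∈ C) (m := 16) (n := 1) ?_ ?_
  · omega
  · intro C hC
    simp only [mem_filter, mem_univ, true_and] at hC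
    have hLC : L ⊆ C := hC.1.line_subset h hC.2.1 hC.2.2 h0
    have : bipartiteAbove (fun (C : Finset V) y => y ∈ C) R C = C \ L := by
      ext y
      simp only [mem_bipartiteAbove, hR, mem_filter, mem_univ, true_and, mem_sdiff]
      exact ⟨fun e => ⟨e.2, e.1.1⟩, fun e => ⟨⟨e.2, fun l hl => hC.1.2 l (hLC hl) y e.1⟩, e.1⟩⟩
    rw [this, card_sdiff_of_subset hLC, hC.1.1, hL.1]
  · intro y hy
    simp only [hR, mem_filter, mem_univ, true_and] at hy
    have hP := exists_plane h hL hy.1 hy.2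
    have hne : ∀ l ∈ L, y ≠ l := by rintro l hl rfl; exact hy.1 hl
    rw [card_eq_one]
    refine ⟨insert y (L.biUnion fun l => (lineOf G y l).erase y), ?_⟩
    ext C
    simp only [mem_bipartiteBelow, mem_filter, mem_univ, true_and, mem_singleton]
    constructor
    · rintro ⟨⟨hC, hxC, hzC⟩, hyC⟩
      refine (eq_of_subset_of_card_le ?_ (by rw [hC.1, hP.1])).symm
      have hLC : L ⊆ C := hC.line_subset h hxC hzC h0
      rw [insert_subset_iff, biUnion_subset]
      exact ⟨hyC, fun l hl => (erase_subset _ _).trans (hC.line_subset h hyC (hLC hl) (hne l hl))⟩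
    · rintro rfl
      have : ∀ l ∈ L, l ∈ insert y (L.biUnion fun l => (lineOf G y l).erase y) := fun l hl =>
        mem_insert_of_mem (mem_biUnion.2 ⟨l, hl, mem_erase.2 ⟨(hne l hl).symm,
          mem_lineOf.2 (Or.inr (Or.inl rfl))⟩⟩)
      exact ⟨⟨hP, this x hx, this z hz⟩, mem_insert_self _ _⟩

theorem card_planes_mem (h : G.IsSRGWith 77 16 0 4) (x : V) :
    (univ.filter fun C => IsPlane G C ∧ x ∈ C).card = 6 := by
  have h60 : (univ.filter fun w => x ≠ w ∧ ¬ G.Adj x w).card = 60 := by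
    have h1 := card_filter_add_card_filter_not (s := (univ : Finset V))
      (fun w => x ≠ w ∧ ¬ G.Adj x w)
    have h2 : (univ.filter fun w => ¬ (x ≠ w ∧ ¬ G.Adj x w)) = insert x (univ.filter (G.Adj x)) := by
      ext w; simp only [mem_filter, mem_univ, true_and, mem_insert]; tauto
    have h3 := srg_dg_univ h x
    rw [h2, card_insert_of_notMem (by simp), card_univ, h.card] at h1
    rw [dg] at h3
    omega
  have := card_mul_eq_card_mul (s := univ.filter fun C => IsPlane G C ∧ x ∈ C)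
    (t := univ.filter fun w => x ≠ w ∧ ¬ G.Adj x w) (fun C y => y ∈ C) (m := 20) (n := 2) ?_ ?_
  · omega
  · intro C hC
    simp only [mem_filter, mem_univ, true_and] at hC
    have : bipartiteAbove (fun (C : Finset V) y => y ∈ C)
        (univ.filter fun w => x ≠ w ∧ ¬ G.Adj x w) C = C.erase x := by
      ext y
      simp only [mem_bipartiteAbove, mem_filter, mem_univ, true_and, mem_erase]
      exact ⟨fun e => ⟨e.1.1.symm, e.2⟩, fun e => ⟨⟨e.1.symm, hC.1.2 x hC.2 y e.2⟩, e.2⟩⟩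
    rw [this, card_erase_of_mem hC.2, hC.1.1]
  · intro y hy
    simp only [mem_filter, mem_univ, true_and] at hy
    rw [← card_planes_pair h hy.1 hy.2]
    congr 1
    ext C
    simp only [mem_bipartiteBelow, mem_filter, mem_univ, true_and, and_assoc]

theorem card_planes (h : G.IsSRGWith 77 16 0 4) : (univ.filter (IsPlane G)).card = 22 := by
  have := card_mul_eq_card_mul (s := univ.filter (IsPlane G)) (t := univ) (fun C y => y ∈ C)
    (m := 21) (n := 6) ?_ ?_
  · rw [card_univ, h.card] at this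
    omega
  · intro C hC
    rw [← (mem_filter.1 hC).2.1]
    congr 1
    ext y
    simp [mem_bipartiteAbove]
  · intro y _
    rw [← card_planes_mem h y]
    congr 1
    ext C
    simp only [mem_bipartiteBelow, mem_filter, mem_univ, true_and]

theorem srg77_iso (h : G.IsSRGWith 77 16 0 4) :
    ∃ B : Set (Finset {C // IsPlane G C}), Fintype.card {C // IsPlane G C} = 22 ∧
      IsSteinerSystem 3 6 B ∧ Nonempty (G ≃g blockGraph B) := by
  have hα : Fintype.card {C // IsPlane G C} = 22 := by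
    rw [Fintype.card_subtype]; exact card_planes h
  let f : V → Finset {C // IsPlane G C} := fun w => univ.filter fun C => w ∈ C.1
  have hf : ∀ w w', (f w ∩ f w').card
      = (univ.filter fun C => IsPlane G C ∧ w ∈ C ∧ w' ∈ C).card := by
    intro w w'
    rw [← card_map (Function.Embedding.subtype _)]
    congr 1
    ext C
    simp [f, and_comm, and_assoc]
  have hf2 : ∀ w w', w ≠ w' → ¬ G.Adj w w' → (f w ∩ f w').card = 2 := by
    intro w w' h1 h2
    rw [hf, card_planes_pair h h1 h2]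
  have hf0 : ∀ w w', G.Adj w w' → (f w ∩ f w').card = 0 := by
    intro w w' h1
    rw [hf, card_eq_zero, filter_eq_empty_iff]
    exact fun C _ hC => hC.1.2 w hC.2.1 w' hC.2.2 h1
  obtain ⟨hinj, hB⟩ := steiner_of_family hα h.card f (fun w => by
    rw [← inter_self (f w), hf, ← card_planes_mem h w]; simp) (fun w w' hne => by
    by_cases h1 : G.Adj w w'
    · rw [hf0 w w' h1]; norm_num
    · rw [hf2 w w' hne h1])
  refine ⟨Set.range f, hα, hB, ⟨⟨Equiv.ofInjective f hinj, fun {w w'} => ?_⟩⟩⟩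
  rw [blockGraph_adj hB, Equiv.ofInjective_apply, Equiv.ofInjective_apply,
    disjoint_iff_inter_eq_empty, ← card_eq_zero]
  refine ⟨fun e => ?_, hf0 w w'⟩
  by_contra h1
  by_cases h2 : w = w'
  · rw [← h2, inter_self, hB.1 _ ⟨w, rfl⟩] at e
    omega
  · rw [hf2 w w' h2 h1] at e
    omega

end Cfsg.Lib.Steiner
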