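import Mathlib
import Cfsg.Agent.Lib.Steiner.WittGen
import Cfsg.Agent.Lib.Steiner.Cert12

/-! Strong uniqueness of the Steiner system S(5, 6, 12) and its automorphism group. -/

set_option autoImplicit false
set_option linter.unusedSectionVars false

namespace Cfsg.Lib.Steiner

open Finset MulAction
open scoped Pointwise

variable {α β : Type*} [Fintype α] [DecidableEq α] [Fintype β] [DecidableEq β]
  {B : Set (Finset α)} {B' : Set (Finset β)}

theorem lab12 (hα : Fintype.card α = 12) (hB : IsSteinerSystem 5 6 B) (x : Fin 5 ↪ α) :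
    ∃ e : α ≃ Fin 12, (∀ i, (e (x i) : ℕ) = i) ∧ ∀ c ∈ tg12, blk e c ∈ B := by
  refine exists_labelling_frame' hα (by norm_num) hB ?_ check12 x
  intro b hb c hc h
  rcases inter12 hα hB hb hc h with h | h | h | h <;> rw [h] <;> rfl

theorem lab12' (hα : Fintype.card α = 12) (hB : IsSteinerSystem 5 6 B) (x : Fin 5 ↪ α) :
    ∃ e : α ≃ Fin 12, (∀ i, (e (x i) : ℕ) = i) ∧
      ∀ y, blk e y ∈ B ↔ ∃ c ∈ tg12, ∀ i < 12, y.testBit i = c.testBit i := by
  obtain ⟨e, h1, hT⟩ := lab12 hα hB x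
  exact ⟨e, h1, char_of_list ((lam12 hα hB).1 ∅ rfl) nodup12 hT⟩

/-- Strong uniqueness: any two frames in any two systems are matched by an isomorphism. -/
theorem strong_unique12 (hα : Fintype.card α = 12) (hβ : Fintype.card β = 12)
    (hB : IsSteinerSystem 5 6 B) (hB' : IsSteinerSystem 5 6 B')
    (x : Fin 5 ↪ α) (x' : Fin 5 ↪ β) :
    ∃ f : α ≃ β, (∀ i, f (x i) = x' i) ∧ (fun b => b.image f) '' B = B' := by
  obtain ⟨e, h1, h3⟩ := lab12' hα hB x
  obtain ⟨e', h1', h3'⟩ := lab12' hβ hB' x'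
  refine ⟨e.trans e'.symm, fun i => ?_, image_eq_of_char h3 h3'⟩
  rw [Equiv.trans_apply, Equiv.symm_apply_eq]
  exact Fin.ext (by rw [h1, h1'])

theorem unique12 (hα : Fintype.card α = 12) (hβ : Fintype.card β = 12)
    (hB : IsSteinerSystem 5 6 B) (hB' : IsSteinerSystem 5 6 B') : SetSystemIso B B' := by
  obtain ⟨x⟩ : Nonempty (Fin 5 ↪ α) :=
    Function.Embedding.nonempty_of_card_le (by rw [Fintype.card_fin]; omega)
  obtain ⟨x'⟩ : Nonempty (Fin 5 ↪ β) :=
    Function.Embedding.nonempty_of_card_le (by rw [Fintype.card_fin]; omega)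
  obtain ⟨f, _, h⟩ := strong_unique12 hα hβ hB hB' x x'
  exact ⟨f, h⟩

theorem trans12 (hα : Fintype.card α = 12) (hB : IsSteinerSystem 5 6 B) :
    IsMultiplyPretransitive (setSystemAut B) α 5 :=
  trans_of_lab (lab12' hα hB)

theorem rigid12 (hα : Fintype.card α = 12) (hB : IsSteinerSystem 5 6 B)
    (x : Fin 5 ↪ α) (g : setSystemAut B) (hg : ∀ i, g • x i = x i) : g = 1 :=
  rigid_of_lab hB rcheck12 (lab12 hα hB) x g hg

end Cfsg.Lib.Steiner
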