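import Mathlib
import Cfsg.Agent.Lib.Steiner.WittGen
import Cfsg.Agent.Lib.Steiner.Cert23

/-! Strong uniqueness of the Steiner system S(4, 7, 23) and its automorphism group. -/

set_option autoImplicit false
set_option linter.unusedSectionVars false

namespace Cfsg.Lib.Steiner

open Finset MulAction
open scoped Pointwise

variable {α β : Type*} [Fintype α] [DecidableEq α] [Fintype β] [DecidableEq β]
  {B : Set (Finset α)} {B' : Set (Finset β)}

theorem par23 (hα : Fintype.card α = 23) (hB : IsSteinerSystem 4 7 B) :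
    ∀ b ∈ B, ∀ c ∈ B, (b ∩ c).card % 2 = 1 := by
  intro b hb c hc
  by_cases h : b = c
  · rw [← h, inter_self, hB.1 b hb]
  · have := inter23 hα hB hb hc h
    omega

theorem lab23 (hα : Fintype.card α = 23) (hB : IsSteinerSystem 4 7 B)
    (x : Fin 5 ↪ α) (b : Finset α) (z : α) (hb : b ∈ B) (hx : ∀ i, x i ∈ b) (hz : z ∉ b) :
    ∃ e : α ≃ Fin 23, (∀ i, (e (x i) : ℕ) = i) ∧ (e z : ℕ) = 5 ∧ ∀ c ∈ tg23, blk e c ∈ B := by
  refine exists_labelling_frame hα (by norm_num) hB ?_ check23 x hb hx hz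
  intro b hb c hc h
  rcases inter23 hα hB hb hc h with h | h <;> rw [h] <;> rfl

theorem char23 (hα : Fintype.card α = 23) (hB : IsSteinerSystem 4 7 B) {e : α ≃ Fin 23}
    (hT : ∀ c ∈ tg23, blk e c ∈ B) (w : Finset α) :
    w ∈ B ↔ w.card = 7 ∧ ∀ r ∈ tg23, (w ∩ blk e r).card % 2 = 1 :=
  char_of_code hB (par23 hα hB) (by norm_num) (by norm_num) colsOK23 avoidAll23 hT w

/-- A 7-set meeting every block with the right parity is a block. -/
theorem mem23_of_parity (hα : Fintype.card α = 23) (hB : IsSteinerSystem 4 7 B) {w : Finset α}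
    (hw : w.card = 7) (h : ∀ r ∈ B, (w ∩ r).card % 2 = 1) : w ∈ B := by
  obtain ⟨x, b, z, hb, hx, hz⟩ := exists_frame hB (s := 5) (by omega) (by omega) (by omega)
  obtain ⟨e, _, _, hT⟩ := lab23 hα hB x b z hb hx hz
  exact (char23 hα hB hT w).2 ⟨hw, fun r hr => h _ (hT r hr)⟩

theorem lab23' (hα : Fintype.card α = 23) (hB : IsSteinerSystem 4 7 B)
    (x : Fin 5 ↪ α) (b : Finset α) (z : α) (hb : b ∈ B) (hx : ∀ i, x i ∈ b) (hz : z ∉ b) :
    ∃ e : α ≃ Fin 23, (∀ i, (e (x i) : ℕ) = i) ∧ (e z : ℕ) = 5 ∧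
      ∀ y, blk e y ∈ B ↔ (pc 23 y = 7 ∧ ∀ r ∈ tg23, pc 23 (y &&& r) % 2 = 1) := by
  obtain ⟨e, h1, h2, hT⟩ := lab23 hα hB x b z hb hx hz
  exact ⟨e, h1, h2, blk_char_of_char (char23 hα hB hT)⟩

/-- Strong uniqueness: any two frames in any two systems are matched by an isomorphism. -/
theorem strong_unique23 (hα : Fintype.card α = 23) (hβ : Fintype.card β = 23)
    (hB : IsSteinerSystem 4 7 B) (hB' : IsSteinerSystem 4 7 B')
    (x : Fin 5 ↪ α) (b : Finset α) (z : α) (hb : b ∈ B) (hx : ∀ i, x i ∈ b) (hz : z ∉ b)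
    (x' : Fin 5 ↪ β) (b' : Finset β) (z' : β) (hb' : b' ∈ B') (hx' : ∀ i, x' i ∈ b')
    (hz' : z' ∉ b') :
    ∃ f : α ≃ β, (∀ i, f (x i) = x' i) ∧ f z = z' ∧ (fun b => b.image f) '' B = B' := by
  obtain ⟨e, h1, h2, h3⟩ := lab23' hα hB x b z hb hx hz
  obtain ⟨e', h1', h2', h3'⟩ := lab23' hβ hB' x' b' z' hb' hx' hz'
  refine ⟨e.trans e'.symm, fun i => ?_, ?_, image_eq_of_char h3 h3'⟩
  · rw [Equiv.trans_apply, Equiv.symm_apply_eq]
    exact Fin.ext (by rw [h1, h1'])
  · rw [Equiv.trans_apply, Equiv.symm_apply_eq]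
    exact Fin.ext (by rw [h2, h2'])

theorem unique23 (hα : Fintype.card α = 23) (hβ : Fintype.card β = 23)
    (hB : IsSteinerSystem 4 7 B) (hB' : IsSteinerSystem 4 7 B') : SetSystemIso B B' := by
  obtain ⟨x, b, z, hb, hx, hz⟩ := exists_frame hB (s := 5) (by omega) (by omega) (by omega)
  obtain ⟨x', b', z', hb', hx', hz'⟩ := exists_frame hB' (s := 5) (by omega) (by omega) (by omega)
  obtain ⟨f, _, _, h⟩ := strong_unique23 hα hβ hB hB' x b z hb hx hz x' b' z' hb' hx' hz'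
  exact ⟨f, h⟩

theorem frameTrans23 (hα : Fintype.card α = 23) (hB : IsSteinerSystem 4 7 B) :
    FrameTrans (setSystemAut B) B 5 :=
  frameTrans_of_lab (lab23' hα hB)

theorem frameRigid23 (hα : Fintype.card α = 23) (hB : IsSteinerSystem 4 7 B) :
    FrameRigid (setSystemAut B) B 5 :=
  frameRigid_of_lab hB rcheck23 (lab23 hα hB)

theorem trans23 (hα : Fintype.card α = 23) (hB : IsSteinerSystem 4 7 B) :
    IsMultiplyPretransitive (setSystemAut B) α 4 :=
  ((frameTrans23 hα hB).of_le hB.1 (by norm_num) (by norm_num)).multiplyPretransitive hB (by omega)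

theorem card_aut23 (hα : Fintype.card α = 23) (hB : IsSteinerSystem 4 7 B) :
    Nat.card (setSystemAut B) = 10200960 := by
  rw [card_aut_of_frames hB (aut_hG B) (by omega) (by norm_num) (by norm_num) (frameTrans23 hα hB)
    (frameRigid23 hα hB), hα]
  rfl

end Cfsg.Lib.Steiner
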